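import Mathlib
import Cfsg.Agent.Lib.Tech.Constrained
import Cfsg.Agent.Lib.Char.PBlock
import Cfsg.Agent.Lib.Coprime.PSolvable
import Cfsg.Agent.Lib.PLocal.PConstrained
import Cfsg.Agent.Lib.Struct.PLen

/-!
# Balance for `p`-soluble centralizers
-/

set_option autoImplicit false
set_option linter.unusedSectionVars false

namespace Cfsg.Agent.Lib.Tech

open Cfsg Subgroup

/-- `A` a `p'`-subgroup of the `p`-soluble group `Y`, centralized by a `p`-element `x`, normalized by the
`p`-elements of `C_Y(x)`: then `A ≤ O_{p'}(Y)`. -/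
theorem le_pPrimeCore_of_balance {Y : Type*} [Group Y] [Finite Y] {p : ℕ} [Fact p.Prime]
    (hY : IsPSolvable p Y) (A : Subgroup Y) (hA : (Nat.card A).Coprime p) (x : Y)
    (hx : ∃ k : ℕ, orderOf x = p ^ k) (hxA : ∀ a ∈ A, a * x = x * a)
    (hnorm : ∀ g : Y, g * x = x * g → (∃ k : ℕ, g ^ p ^ k = 1) → g ∈ normalizer (A : Set Y)) :
    A ≤ pPrimeCore p Y := by
  have hp : p.Prime := Fact.out
  set K := pPrimeCore p Y with hK
  haveI hKn : K.Normal := Cfsg.Agent.Lib.Basic.pPrimeCore_normal p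
  have hKc : (Nat.card K).Coprime p := Cfsg.Agent.Lib.Components.coprime_card_pPrimeCore p
  set π := QuotientGroup.mk' K with hπ
  have hZ0 : pPrimeCore p (Y ⧸ K) = ⊥ := Cfsg.Agent.Lib.Components.pPrimeCore_quotient_eq_bot p
  have hZs : IsPSolvable p (Y ⧸ K) :=
    Cfsg.Agent.Lib.Coprime.isPSolvable_map π (QuotientGroup.mk'_surjective _) hY
  have hc := Cfsg.Agent.Lib.Char.centralizer_pCore_le_of_isPSolvable hZs hZ0
  have hAc : (Nat.card (A.map π)).Coprime p :=
    hA.coprime_dvd_left (Subgroup.card_map_dvd _ _)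
  have hbot : A.map π = ⊥ := by
    refine Cfsg.Agent.Lib.PLocal.eq_bot_of_centralizes hc (R := zpowers (π x)) ?_ hAc ?_ ?_
    · -- the image of `x` is a `p`-element
      obtain ⟨k, hk⟩ := hx
      rw [IsPGroup.iff_card, Nat.card_zpowers]
      have h1 : orderOf (π x) ∣ p ^ k := hk ▸ orderOf_map_dvd π x
      obtain ⟨j, -, hj⟩ := (Nat.dvd_prime_pow hp).1 h1
      exact ⟨j, hj⟩
    · rintro _ ⟨a, ha, rfl⟩ r hr
      obtain ⟨n, rfl⟩ := mem_zpowers_iff.1 hr
      have h1 : Commute (π a) (π x) := by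
        show π a * π x = π x * π a
        rw [← map_mul, ← map_mul, hxA a ha]
      exact h1.zpow_right n
    · rintro _ ⟨a, ha, rfl⟩ z ⟨hzQ, hzC⟩
      have hzQ' : z ∈ pCore p (Y ⧸ K) := hzQ
      have hcz : π x * z = z * π x := by
        have := mem_centralizer_iff.1 hzC (π x) (mem_zpowers _)
        exact this
      obtain ⟨k, hk⟩ := (Cfsg.Agent.Lib.Basic.pCore_isPGroup p (G := Y ⧸ K)) ⟨z, hzQ'⟩
      have hzk : z ^ p ^ k = 1 := by simpa using congrArg Subtype.val hk
      obtain ⟨g₀, hg₀⟩ := QuotientGroup.mk'_surjective K z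
      -- `x` and its `g₀`-conjugate are `K`-conjugate
      have hu : x⁻¹ * (g₀ * x * g₀⁻¹) ∈ K := by
        rw [← QuotientGroup.ker_mk' K, MonoidHom.mem_ker]
        show π (x⁻¹ * (g₀ * x * g₀⁻¹)) = 1
        have hg₀' : π g₀ = z := hg₀
        simp only [map_mul, map_inv, hg₀']
        rw [← hcz]
        group
      have hx' : ∃ k : ℕ, orderOf (g₀ * x * g₀⁻¹) = p ^ k := by
        obtain ⟨k, hk⟩ := hx
        refine ⟨k, ?_⟩
        rw [← hk]
        exact orderOf_injective (MulAut.conj g₀).toMonoidHom (MulAut.conj g₀).injective x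
      obtain ⟨c, hcK, hcx⟩ := exists_conj_of_same_image K hKc hx hx' hu
      set g₁ := c * g₀ with hg₁
      have hg₁x : g₁ * x = x * g₁ := by
        calc g₁ * x = (c * (g₀ * x * g₀⁻¹) * c⁻¹) * (c * g₀) := by rw [hg₁]; group
          _ = x * g₁ := by rw [hcx]
      have hπg₁ : π g₁ = z := by
        have h1 : π c = 1 := by
          show π c = 1
          rw [← MonoidHom.mem_ker, QuotientGroup.ker_mk']
          exact hcK
        rw [hg₁, map_mul, h1, one_mul]
        exact hg₀
      obtain ⟨n, j, hj, hjπ⟩ := Cfsg.Agent.Lib.Components.exists_pElement_lift π g₁ (c := k)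
        (by rw [hπg₁]; exact hzk)
      set g := g₁ ^ n with hg
      have hgx : g * x = x * g := by
        have : Commute g₁ x := hg₁x
        exact (this.zpow_left n)
      have hπg : π g = z := by rw [hjπ, hπg₁]
      have hgN : g ∈ normalizer (A : Set Y) := hnorm g hgx ⟨j, hj⟩
      -- the commutator lies in `A` and maps into `O_p`
      have h1 : a * g * a⁻¹ * g⁻¹ ∈ A := by
        have h2 := (mem_normalizer_iff.1 hgN (a⁻¹)).1 (A.inv_mem ha)
        have h3 : a * g * a⁻¹ * g⁻¹ = a * (g * a⁻¹ * g⁻¹) := by group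
        rw [h3]
        exact A.mul_mem ha h2
      have h2 : π a * z * (π a)⁻¹ * z⁻¹ ∈ pCore p (Y ⧸ K) := by
        haveI hQn : (pCore p (Y ⧸ K)).Normal := Cfsg.Agent.Lib.Basic.pCore_normal p
        exact (pCore p (Y ⧸ K)).mul_mem (hQn.conj_mem z hzQ' (π a)) ((pCore p (Y ⧸ K)).inv_mem hzQ')
      have h3 : π a * z * (π a)⁻¹ * z⁻¹ ∈ A.map π := by
        refine ⟨_, h1, ?_⟩
        simp only [map_mul, map_inv, hπg]
      have h4 : π a * z * (π a)⁻¹ * z⁻¹ = 1 := by
        obtain ⟨m, hm⟩ := (Cfsg.Agent.Lib.Basic.pCore_isPGroup p (G := Y ⧸ K)) ⟨_, h2⟩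
        have hm' : (π a * z * (π a)⁻¹ * z⁻¹) ^ p ^ m = 1 := by simpa using congrArg Subtype.val hm
        have h5 := Cfsg.Agent.Lib.Components.orderOf_coprime_of_mem hAc h3
        have h6 : orderOf (π a * z * (π a)⁻¹ * z⁻¹) ∣ p ^ m := orderOf_dvd_of_pow_eq_one hm'
        have h7 := Nat.Coprime.eq_one_of_dvd (h5.pow_right m) h6
        rwa [orderOf_eq_one_iff] at h7
      have h5 := mul_inv_eq_one.1 h4
      calc π a * z = π a * z * (π a)⁻¹ * π a := by group
        _ = z * π a := by rw [h5]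
  intro a ha
  have h1 : π a ∈ A.map π := ⟨a, ha, rfl⟩
  rw [hbot, Subgroup.mem_bot] at h1
  rw [← QuotientGroup.ker_mk' K, MonoidHom.mem_ker]
  exact h1

/-- One inclusion of balance. -/
theorem centralizerPPrimeCore_inf_le {G : Type*} [Group G] [Finite G] {p : ℕ} [Fact p.Prime] {x y : G}
    (hx : ∃ k : ℕ, orderOf x = p ^ k) (hxy : x * y = y * x)
    (hCy : IsPSolvable p ↥(Subgroup.centralizer ({y} : Set G))) :
    Cfsg.centralizerPPrimeCore p x ⊓ Subgroup.centralizer {y} ≤
      Cfsg.centralizerPPrimeCore p y ⊓ Subgroup.centralizer {x} := by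
  set L := Cfsg.centralizerPPrimeCore p x ⊓ Subgroup.centralizer {y} with hL
  set Cx := Subgroup.centralizer ({x} : Set G) with hCx
  set Cy := Subgroup.centralizer ({y} : Set G) with hCyy
  have hLx : L ≤ Cx := by
    rintro a ⟨⟨a₀, -, rfl⟩, -⟩
    exact a₀.2
  have hxC : x ∈ Cy := by
    rw [hCyy, Subgroup.mem_centralizer_singleton_iff]
    exact hxy
  have hLc : (Nat.card L).Coprime p := by
    have h1 : L ≤ (pPrimeCore p Cx).map Cx.subtype := inf_le_left
    have h2 : Nat.card L ∣ Nat.card ((pPrimeCore p Cx).map Cx.subtype) := Subgroup.card_dvd_of_le h1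
    rw [Subgroup.card_map_of_injective Cx.subtype_injective] at h2
    exact (Cfsg.Agent.Lib.Components.coprime_card_pPrimeCore p).coprime_dvd_left h2
  set A : Subgroup Cy := L.subgroupOf Cy with hA
  have hAc : (Nat.card A).Coprime p := by
    have h2 : Nat.card A ∣ Nat.card L := by
      have h3 : A.map Cy.subtype = L ⊓ Cy := Subgroup.subgroupOf_map_subtype L Cy
      have h4 : Nat.card (A.map Cy.subtype) = Nat.card A := Subgroup.card_map_of_injective Cy.subtype_injective
      rw [← h4, h3]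
      exact Subgroup.card_dvd_of_le inf_le_left
    exact hLc.coprime_dvd_left h2
  have hmain := le_pPrimeCore_of_balance hCy A hAc (⟨x, hxC⟩ : Cy)
    (by simpa [Subgroup.orderOf_mk] using hx)
    (by
      intro a ha
      have h1 : (a : G) ∈ Cx := hLx (Subgroup.mem_subgroupOf.1 ha)
      have h2 : (a : G) * x = x * a := by
        rw [hCx, Subgroup.mem_centralizer_singleton_iff] at h1
        exact h1
      exact Subtype.ext h2)
    (by
      intro g hg _
      have hgx : (g : G) * x = x * g := congrArg Subtype.val hg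
      have hgCx : (g : G) ∈ Cx := by
        rw [hCx, Subgroup.mem_centralizer_singleton_iff]
        exact hgx
      rw [mem_normalizer_iff]
      intro a
      simp only [SetLike.mem_coe, hA, Subgroup.mem_subgroupOf]
      have hgg : ∀ (u : G), u ∈ Cx → ((⟨g, hgCx⟩ : Cx) : G) = g → True := fun _ _ _ => trivial
      haveI hn : (pPrimeCore p Cx).Normal := Cfsg.Agent.Lib.Basic.pPrimeCore_normal p
      have key : ∀ (h : Cy) (hh : (h : G) ∈ Cx) (b : Cy), (b : G) ∈ L → ((h * b * h⁻¹ : Cy) : G) ∈ L := by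
        rintro h hh b ⟨⟨b₀, hb₀, hb₀e⟩, hby⟩
        refine ⟨⟨(⟨h, hh⟩ : Cx) * b₀ * (⟨h, hh⟩ : Cx)⁻¹, hn.conj_mem b₀ hb₀ _, ?_⟩, ?_⟩
        · simp only [Subgroup.coe_subtype, Subgroup.coe_mul, Subgroup.coe_inv]
          have : (b₀ : G) = b := hb₀e
          rw [this]
        · exact (h * b * h⁻¹ : Cy).2
      constructor
      · intro ha
        exact key g hgCx a ha
      · intro ha
        have h3 := key g⁻¹ (by simpa using Cx.inv_mem hgCx) (g * a * g⁻¹) ha
        simpa [mul_assoc] using h3)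
  intro a ha
  have hay : a ∈ Cy := ha.2
  refine ⟨?_, hLx ha⟩
  have h1 : (⟨a, hay⟩ : Cy) ∈ A := by
    rw [hA, Subgroup.mem_subgroupOf]
    exact ha
  exact ⟨_, hmain h1, rfl⟩

end Cfsg.Agent.Lib.Tech
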