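import Mathlib
import Cfsg.Prelude.Def_ConjugacyFunctors
import Cfsg.Prelude.Def_LocalEven
import Cfsg.Agent.Lib.Tech.FusionFail

/-!
# `p`-stability in sections and control of strong fusion by the `K`-infinity subgroups.
-/

set_option autoImplicit false
set_option linter.unusedSectionVars false
set_option linter.style.haveILetI false

namespace Cfsg.Agent.Lib.Tech

open Cfsg Subgroup Cfsg.Agent.Lib.Coprime Cfsg.Agent.Lib.Basic
open scoped commutatorElement

universe u

variable {p : ℕ} [Fact p.Prime]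

/-- `p`-stability is invariant under isomorphisms. -/
theorem IsNormalizerPStable.of_equiv {Y Z : Type*} [Group Y] [Group Z] [Finite Y] [Finite Z] (e : Y ≃* Z)
    (h : IsNormalizerPStable p Y) : IsNormalizerPStable p Z := by
  intro P' hP' g' hg' hq
  set P : Subgroup Y := P'.map e.symm.toMonoidHom with hP
  have hPp : IsPGroup p P := hP'.map _
  have hmemP : ∀ y : Y, e y ∈ P' ↔ y ∈ P := by
    intro y
    constructor
    · intro hy
      exact ⟨e y, hy, by simp⟩
    · rintro ⟨x, hx, rfl⟩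
      simpa using hx
  have hNmap : ∀ y : Z, y ∈ normalizer (P' : Set Z) → e.symm y ∈ normalizer (P : Set Y) := by
    intro y hy
    rw [mem_normalizer_iff] at hy ⊢
    intro a
    rw [← hmemP, ← hmemP]
    have := hy (e a)
    simpa using this
  set g : Y := e.symm g' with hg
  have hgN : g ∈ normalizer (P : Set Y) := hNmap g' hg'
  have hqY : ⁅⁅P, zpowers g⁆, zpowers g⁆ = ⊥ := by
    have h1 : (⁅⁅P', zpowers g'⁆, zpowers g'⁆).map e.symm.toMonoidHom = ⊥ := by
      rw [hq, Subgroup.map_bot]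
    rw [Subgroup.map_commutator, Subgroup.map_commutator] at h1
    have h2 : (zpowers g').map e.symm.toMonoidHom = zpowers g := by
      rw [MonoidHom.map_zpowers]
      rfl
    rwa [h2] at h1
  have hcore := h P hPp g hgN hqY
  set A : Subgroup Y := normalizer (P : Set Y) with hA
  set A' : Subgroup Z := normalizer (P' : Set Z) with hA'
  set C : Subgroup Y := centralizer (P : Set Y) with hC
  set C' : Subgroup Z := centralizer (P' : Set Z) with hC'
  let ρ : ↥A' →* ↥A := MonoidHom.codRestrict (e.symm.toMonoidHom.comp A'.subtype) A (fun y => hNmap y y.2)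
  let f : ↥A' →* (↥A ⧸ C.subgroupOf A) := (QuotientGroup.mk' (C.subgroupOf A)).comp ρ
  have hf : ∀ y : ↥A', f y = 1 ↔ (y : Z) ∈ C' := by
    intro y
    show ((ρ y : ↥A) : ↥A ⧸ C.subgroupOf A) = 1 ↔ _
    rw [QuotientGroup.eq_one_iff]
    show e.symm (y : Z) ∈ C ↔ _
    rw [hC, hC', mem_centralizer_iff, mem_centralizer_iff]
    constructor
    · intro h1 a ha
      have h2 := h1 (e.symm a) ⟨a, ha, rfl⟩
      have h3 := congrArg e h2
      simpa using h3
    · rintro h1 _ ⟨a, ha, rfl⟩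
      have h2 := h1 a ha
      have h3 := congrArg e.symm h2
      simpa using h3
  set D : Subgroup (↥A ⧸ C.subgroupOf A) := pCore p (↥A ⧸ C.subgroupOf A) with hD
  have hDp : IsPGroup p D := pCore_isPGroup p
  haveI hDn : D.Normal := pCore_normal p _
  set L' : Subgroup ↥A' := D.comap f with hL'
  haveI hL'n : L'.Normal := hDn.comap f
  let π' : ↥A' →* (↥A' ⧸ C'.subgroupOf A') := QuotientGroup.mk' (C'.subgroupOf A')
  have hπ' : Function.Surjective π' := QuotientGroup.mk'_surjective _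
  have hLn : (L'.map π').Normal := hL'n.map π' hπ'
  have hLp : IsPGroup p (L'.map π') := by
    rintro ⟨_, y, hy, rfl⟩
    obtain ⟨k, hk⟩ := hDp ⟨f y, hy⟩
    refine ⟨k, ?_⟩
    apply Subtype.ext
    have h1 : (f y) ^ p ^ k = 1 := congrArg Subtype.val hk
    have h2 : f (y ^ p ^ k) = 1 := by rw [map_pow, h1]
    have h3 := (hf _).1 h2
    show (π' y) ^ p ^ k = 1
    rw [← map_pow]
    exact (QuotientGroup.eq_one_iff _).2 h3
  have hle : L'.map π' ≤ pCore p (↥A' ⧸ C'.subgroupOf A') := le_pCore hLn hLp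
  apply hle
  refine ⟨⟨g', hg'⟩, ?_, rfl⟩
  show f ⟨g', hg'⟩ ∈ D
  have h5 : f ⟨g', hg'⟩ = QuotientGroup.mk ⟨g, hgN⟩ := rfl
  rw [h5]
  exact hcore

/-- The `p`-stability of every section, as a section property. -/
theorem secAll_pStable {G : Type u} [Group G] [Finite G]
    (hst : ∀ (K R : Subgroup G) [hR : (R.subgroupOf K).Normal], IsNormalizerPStable p (↥K ⧸ R.subgroupOf K)) :
    SecAll (fun Y _ => IsNormalizerPStable p Y) G :=
  SecAll.of_sections (Φ := fun Y _ => IsNormalizerPStable p Y) (fun _ _ _ _ _ _ e h => IsNormalizerPStable.of_equiv e h) hst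

/-- In a `p`-stable situation, the `K`-infinity subgroups are normal in constrained sections. -/
theorem kInf_normal_of_pStable {G : Type u} [Group G] [Finite G]
    (hst : SecAll (fun Y _ => IsNormalizerPStable p Y) G)
    (K R : Subgroup G) [hR : (R.subgroupOf K).Normal]
    (hc : centralizer ((pCore p (↥K ⧸ R.subgroupOf K) : Subgroup (↥K ⧸ R.subgroupOf K)) : Set (↥K ⧸ R.subgroupOf K)) ≤
      pCore p (↥K ⧸ R.subgroupOf K)) (S : Sylow p (↥K ⧸ R.subgroupOf K)) :
    (inducedFunctor (G := ↥K ⧸ R.subgroupOf K) kInfLower (S : Subgroup (↥K ⧸ R.subgroupOf K))).Normal ∧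
    (inducedFunctor (G := ↥K ⧸ R.subgroupOf K) kInfUpper (S : Subgroup (↥K ⧸ R.subgroupOf K))).Normal := by
  by_contra hcon
  have hK : ¬ (inducedFunctor (G := ↥K ⧸ R.subgroupOf K) kInfLower (S : Subgroup (↥K ⧸ R.subgroupOf K))).Normal ∨
      ¬ (inducedFunctor (G := ↥K ⧸ R.subgroupOf K) kInfUpper (S : Subgroup (↥K ⧸ R.subgroupOf K))).Normal := by
    by_contra h
    push Not at h
    exact hcon h
  obtain ⟨g, -, -, -, -, h3⟩ := exists_four_element S.isPGroup' S.not_dvd_index hK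
  obtain ⟨U, V, hUV, hU, hq, hn⟩ := h3 hc
  obtain ⟨N, hN, hnst⟩ := not_pStable_of_chief (pCore_normal p _) (pCore_isPGroup p) hUV hU hq hn
  apply hnst
  let π : ↥K →* (↥K ⧸ R.subgroupOf K) := QuotientGroup.mk' _
  have hπ : Function.Surjective π := QuotientGroup.mk'_surjective _
  exact hst _ K ((QuotientGroup.mk' N).comp π) ((QuotientGroup.mk'_surjective N).comp hπ)

/-- The fusion statement for the lower `K`-infinity subgroup. -/
theorem kInfLower_controls_of_pStable {G : Type u} [Group G] [Finite G]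
    (hst : ∀ (K R : Subgroup G) [hR : (R.subgroupOf K).Normal], IsNormalizerPStable p (↥K ⧸ R.subgroupOf K))
    (K R : Subgroup G) [hR : (R.subgroupOf K).Normal] : FSX p {kInfLower} (↥K ⧸ R.subgroupOf K) := by
  have hW' : ∀ W' ∈ ({kInfLower} : Set (∀ (Q : Type u) [Group Q], Subgroup Q)), IsCharPFunctor.{u} p W' := by
    rintro _ rfl
    exact kInfLower_isCharPFunctor p
  refine fsx_constrained_sections (G := G) hW' ?_ K R
  intro K R hR hc
  obtain ⟨S⟩ : Nonempty (Sylow p (↥K ⧸ R.subgroupOf K)) := inferInstance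
  exact fsx_of_normal_functor (W := kInfLower) rfl S (kInf_normal_of_pStable (secAll_pStable hst) K R hc S).1

/-- The fusion statement for the upper `K`-infinity subgroup. -/
theorem kInfUpper_controls_of_pStable {G : Type u} [Group G] [Finite G]
    (hst : ∀ (K R : Subgroup G) [hR : (R.subgroupOf K).Normal], IsNormalizerPStable p (↥K ⧸ R.subgroupOf K))
    (K R : Subgroup G) [hR : (R.subgroupOf K).Normal] : FSX p {kInfUpper} (↥K ⧸ R.subgroupOf K) := by
  have hW' : ∀ W' ∈ ({kInfUpper} : Set (∀ (Q : Type u) [Group Q], Subgroup Q)), IsCharPFunctor.{u} p W' := by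
    rintro _ rfl
    exact kInfUpper_isCharPFunctor p
  refine fsx_constrained_sections (G := G) hW' ?_ K R
  intro K R hR hc
  obtain ⟨S⟩ : Nonempty (Sylow p (↥K ⧸ R.subgroupOf K)) := inferInstance
  exact fsx_of_normal_functor (W := kInfUpper) rfl S (kInf_normal_of_pStable (secAll_pStable hst) K R hc S).2

/-- Factorizations give control of strong fusion. -/
theorem fsx_of_factorization {𝓦 : Set (∀ (Q : Type u) [Group Q], Subgroup Q)} (h𝓦 : ∀ W ∈ 𝓦, IsCharPFunctor.{u} p W)
    {X : Type u} [Group X] [Finite X] {W₁ W₂ : ∀ (Q : Type u) [Group Q], Subgroup Q} (hW₁ : W₁ ∈ 𝓦) (hW₂ : W₂ ∈ 𝓦) (S : Sylow p X)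
    (hfac : ∀ x : X, ∃ a ∈ normalizer ((inducedFunctor (G := X) W₁ (S : Subgroup X) : Subgroup X) : Set X),
      ∃ b ∈ normalizer ((inducedFunctor (G := X) W₂ (S : Subgroup X) : Subgroup X) : Set X), x = a * b) :
    FSX p 𝓦 X := by
  classical
  have hSp := S.isPGroup'
  have hSi : ¬ p ∣ (S : Subgroup X).index := S.not_dvd_index
  set S' : Subgroup X := (S : Subgroup X) with hS'
  set N₁ : Subgroup X := normalizer ((inducedFunctor (G := X) W₁ S' : Subgroup X) : Set X) with hN₁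
  set N₂ : Subgroup X := normalizer ((inducedFunctor (G := X) W₂ S' : Subgroup X) : Set X) with hN₂
  have hSN₁ : S' ≤ N₁ := le_normalizer_induced h𝓦 hSp hW₁
  have hSN₂ : S' ≤ N₂ := le_normalizer_induced h𝓦 hSp hW₂
  refine familyControls_iff.2 ⟨S', le_top, hSp, ?_, fun A h _ hA hA' => ?_⟩
  · rwa [Subgroup.relIndex_top_right]
  obtain ⟨a, ha, b, hb, rfl⟩ := hfac h
  set L : Subgroup X := N₁ ⊓ N₂ with hL
  have hSL : S' ≤ L := le_inf hSN₁ hSN₂
  have hB : Subgroup.closure (lc b A) ≤ L := by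
    rw [Subgroup.closure_le]
    rintro _ ⟨x, hx, rfl⟩
    refine Subgroup.mem_inf.2 ⟨?_, N₂.mul_mem (N₂.mul_mem hb (hSN₂ (hA hx))) (N₂.inv_mem hb)⟩
    have h1 : (a * b) * x * (a * b)⁻¹ ∈ S' := hA' ⟨x, hx, rfl⟩
    have h2 : b * x * b⁻¹ = a⁻¹ * ((a * b) * x * (a * b)⁻¹) * a := by group
    show b * x * b⁻¹ ∈ N₁
    rw [h2]
    exact N₁.mul_mem (N₁.mul_mem (N₁.inv_mem ha) (hSN₁ h1)) ha
  have hBp : IsPGroup p (Subgroup.closure (lc b A)) := by
    have h1 : Subgroup.closure (lc b A) ≤ Subgroup.map (MulEquiv.toMonoidHom (MulAut.conj b)) S' := by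
      rw [Subgroup.closure_le]
      rintro _ ⟨x, hx, rfl⟩
      exact ⟨x, hA hx, rfl⟩
    exact (hSp.map _).to_le h1
  have hrel : ¬ p ∣ S'.relIndex L := fun hd => hSi (hd.trans (Subgroup.relIndex_dvd_index_of_le hSL))
  obtain ⟨y, hy, hyB⟩ := exists_conj_le_of_relIndex hrel hB hBp
  obtain ⟨hy1, hy2⟩ := Subgroup.mem_inf.1 hy
  set b' : X := y * b with hb'
  set a' : X := a * y⁻¹ with ha'
  have hab : a' * b' = a * b := by
    rw [ha', hb']
    group
  have hb'N : b' ∈ N₂ := N₂.mul_mem hy2 hb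
  have ha'N : a' ∈ N₁ := N₁.mul_mem ha (N₁.inv_mem hy1)
  have hlc : lc b' A ⊆ S' := by
    rintro _ ⟨x, hx, rfl⟩
    have h1 : y * (b * x * b⁻¹) * y⁻¹ ∈ S' := hyB ⟨b * x * b⁻¹, Subgroup.subset_closure ⟨x, hx, rfl⟩, rfl⟩
    have h2 : b' * x * b'⁻¹ = y * (b * x * b⁻¹) * y⁻¹ := by
      rw [hb']
      group
    show b' * x * b'⁻¹ ∈ S'
    rw [h2]
    exact h1
  have F1 : Fus (indFam X 𝓦) S' A b' := Fus.single ⟨W₂, hW₂, rfl⟩ hb'N hlc
  have F2 : Fus (indFam X 𝓦) S' (lc b' A) a' := Fus.single ⟨W₁, hW₁, rfl⟩ ha'N (by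
    rw [lc_lc, hab]
    exact hA')
  have F3 := F1.trans F2
  rw [hab] at F3
  exact F3

end Cfsg.Agent.Lib.Tech
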