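import Mathlib
import Cfsg.Prelude.Def_ConjugacyFunctors
import Cfsg.Prelude.Def_LocalEven
import Cfsg.Agent.Lib.Tech.PNilp
import Cfsg.Agent.Lib.Tech.PStableChief
import Cfsg.Agent.Lib.Tech.PStableFusion
import Cfsg.Agent.S1978

/-!
# A Hall-Higman type lemma for abelian groups of automorphisms.

If `x` normalizes a commutative group `A` of `p'`-automorphisms of an elementary abelian `p`-group and the norm of `x` vanishes
(that is, `(x - 1) ^ (p - 1) = 0`), then `x` centralizes `A`.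
-/

set_option autoImplicit false
set_option linter.unusedSectionVars false
set_option linter.style.haveILetI false

namespace Cfsg.Agent.Lib.Tech

open Cfsg Subgroup Cfsg.Agent.Lib.Coprime Cfsg.Agent.Lib.Basic Cfsg.Agent.Lib.Transfer
open scoped commutatorElement

universe u

section Ring

variable {R : Type*} [Ring R] {p : ℕ}

/-- The elimination step. -/
theorem hh_step (A : Subgroup Rˣ) (hc : ∀ a ∈ A, ∀ b ∈ A, a * b = b * a) (x : Rˣ)
    (hx : ∀ a ∈ A, x * a * x⁻¹ ∈ A) (y : Rˣ)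
    (hk : ∀ k, 1 ≤ k → k < p → ∃ h ∈ A, h * (x ^ k * h * (x ^ k)⁻¹)⁻¹ = y) :
    ∀ (n : ℕ), n < p → ∀ w : ℕ → R,
      (∀ a ∈ A, ∑ i ∈ Finset.range (n + 1), ((x ^ i * a * (x ^ i)⁻¹ : Rˣ) : R) * w i = 0) →
      ((y : R) - 1) ^ n * w 0 = 0 := by
  have hxi : ∀ (i : ℕ), ∀ a ∈ A, x ^ i * a * (x ^ i)⁻¹ ∈ A := by
    intro i
    induction i with
    | zero =>
      intro a ha
      simpa using ha
    | succ i ih =>
      intro a ha
      have h1 := hx _ (ih a ha)
      have h2 : x ^ (i + 1) * a * (x ^ (i + 1))⁻¹ = x * (x ^ i * a * (x ^ i)⁻¹) * x⁻¹ := by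
        rw [pow_succ']
        group
      rw [h2]
      exact h1
  intro n
  induction n with
  | zero =>
    intro _ w hw
    have h1 := hw 1 A.one_mem
    simpa using h1
  | succ n ih =>
    intro hn w hw
    obtain ⟨h, hhA, hh⟩ := hk (n + 1) (by omega) hn
    set g : Rˣ := x ^ (n + 1) * h * (x ^ (n + 1))⁻¹ with hg
    have hgA : g ∈ A := hxi _ _ hhA
    have key := ih (by omega) (fun i => (((x ^ i * h * (x ^ i)⁻¹ * g⁻¹ : Rˣ) : R) - 1) * w i) (by
      intro a ha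
      have h1 := hw (a * h) (A.mul_mem ha hhA)
      have h2 := hw a ha
      have h3 : ((g⁻¹ : Rˣ) : R) * ∑ i ∈ Finset.range (n + 1 + 1), ((x ^ i * (a * h) * (x ^ i)⁻¹ : Rˣ) : R) * w i = 0 := by
        rw [h1, mul_zero]
      rw [Finset.mul_sum] at h3
      have h4 : ∑ i ∈ Finset.range (n + 1 + 1), (((g⁻¹ : Rˣ) : R) * (((x ^ i * (a * h) * (x ^ i)⁻¹ : Rˣ) : R) * w i) -
          ((x ^ i * a * (x ^ i)⁻¹ : Rˣ) : R) * w i) = 0 := by
        rw [Finset.sum_sub_distrib, h3, h2, sub_zero]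
      have hterm : ∀ i : ℕ, ((g⁻¹ : Rˣ) : R) * (((x ^ i * (a * h) * (x ^ i)⁻¹ : Rˣ) : R) * w i) -
          ((x ^ i * a * (x ^ i)⁻¹ : Rˣ) : R) * w i =
          ((x ^ i * a * (x ^ i)⁻¹ : Rˣ) : R) * ((((x ^ i * h * (x ^ i)⁻¹ * g⁻¹ : Rˣ) : R) - 1) * w i) := by
        intro i
        have h5 : g⁻¹ * (x ^ i * (a * h) * (x ^ i)⁻¹) = (x ^ i * a * (x ^ i)⁻¹) * (x ^ i * h * (x ^ i)⁻¹ * g⁻¹) := by
          have h6 : x ^ i * (a * h) * (x ^ i)⁻¹ = (x ^ i * a * (x ^ i)⁻¹) * (x ^ i * h * (x ^ i)⁻¹) := by group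
          have h7 := hc _ (A.inv_mem hgA) _ (A.mul_mem (hxi i a ha) (hxi i h hhA))
          rw [h6, h7, mul_assoc]
        have h10 : ((g⁻¹ : Rˣ) : R) * (((x ^ i * (a * h) * (x ^ i)⁻¹ : Rˣ) : R) * w i) =
            ((g⁻¹ * (x ^ i * (a * h) * (x ^ i)⁻¹) : Rˣ) : R) * w i := by
          rw [Units.val_mul g⁻¹ (x ^ i * (a * h) * (x ^ i)⁻¹), mul_assoc ((g⁻¹ : Rˣ) : R)]
        have h11 : ((x ^ i * a * (x ^ i)⁻¹ : Rˣ) : R) * ((((x ^ i * h * (x ^ i)⁻¹ * g⁻¹ : Rˣ) : R) - 1) * w i) =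
            (((x ^ i * a * (x ^ i)⁻¹) * (x ^ i * h * (x ^ i)⁻¹ * g⁻¹) : Rˣ) : R) * w i - ((x ^ i * a * (x ^ i)⁻¹ : Rˣ) : R) * w i := by
          rw [Units.val_mul (x ^ i * a * (x ^ i)⁻¹) (x ^ i * h * (x ^ i)⁻¹ * g⁻¹), sub_mul, mul_sub, one_mul,
            mul_assoc ((x ^ i * a * (x ^ i)⁻¹ : Rˣ) : R)]
        rw [h10, h11, h5]
      rw [Finset.sum_range_succ] at h4
      have hlast := hterm (n + 1)
      have h9 : x ^ (n + 1) * h * (x ^ (n + 1))⁻¹ * g⁻¹ = 1 := by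
        rw [← hg]
        group
      rw [h9] at hlast
      simp only [Units.val_one, sub_self, zero_mul, mul_zero] at hlast
      rw [hlast, add_zero] at h4
      rw [← h4]
      refine Finset.sum_congr rfl (fun i _ => ?_)
      rw [hterm i])
    have h0 : x ^ 0 * h * (x ^ 0)⁻¹ * g⁻¹ = y := by
      simpa using hh
    simp only [h0] at key
    rw [pow_succ, mul_assoc]
    exact key

/-- A telescoping product. -/
theorem hh_exists (A : Subgroup Rˣ) (hc : ∀ a ∈ A, ∀ b ∈ A, a * b = b * a) (c : Rˣ)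
    (hx : ∀ a ∈ A, c * a * c⁻¹ ∈ A) (b : Rˣ) (hb : b ∈ A) :
    ∀ n : ℕ, ∃ h ∈ A, h * (c * h * c⁻¹)⁻¹ = b * (c ^ n * b * (c ^ n)⁻¹)⁻¹ := by
  have hxi : ∀ (i : ℕ), ∀ a ∈ A, c ^ i * a * (c ^ i)⁻¹ ∈ A := by
    intro i
    induction i with
    | zero =>
      intro a ha
      simpa using ha
    | succ i ih =>
      intro a ha
      have h1 := hx _ (ih a ha)
      have h2 : c ^ (i + 1) * a * (c ^ (i + 1))⁻¹ = c * (c ^ i * a * (c ^ i)⁻¹) * c⁻¹ := by
        rw [pow_succ']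
        group
      rw [h2]
      exact h1
  intro n
  induction n with
  | zero => exact ⟨1, A.one_mem, by simp⟩
  | succ n ih =>
    obtain ⟨h, hh, he⟩ := ih
    set d : Rˣ := c ^ n * b * (c ^ n)⁻¹ with hd
    have hdA : d ∈ A := hxi n b hb
    refine ⟨h * d, A.mul_mem hh hdA, ?_⟩
    have h1 : c ^ (n + 1) * b * (c ^ (n + 1))⁻¹ = c * d * c⁻¹ := by
      rw [hd, pow_succ']
      group
    have h2 : c * (h * d) * c⁻¹ = (c * h * c⁻¹) * (c * d * c⁻¹) := by group
    rw [h1, h2, mul_inv_rev]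
    have h3 : h * d * ((c * d * c⁻¹)⁻¹ * (c * h * c⁻¹)⁻¹) = d * (c * d * c⁻¹)⁻¹ * (h * (c * h * c⁻¹)⁻¹) := by
      have h4 := hc _ hh _ hdA
      have h5 := hc _ (A.inv_mem (hx _ hdA)) _ (A.inv_mem (hx _ hh))
      have h6 := hc _ hh _ (A.mul_mem hdA (A.inv_mem (hx _ hdA)))
      calc h * d * ((c * d * c⁻¹)⁻¹ * (c * h * c⁻¹)⁻¹) = h * (d * (c * d * c⁻¹)⁻¹) * (c * h * c⁻¹)⁻¹ := by group
        _ = d * (c * d * c⁻¹)⁻¹ * h * (c * h * c⁻¹)⁻¹ := by rw [h6]
        _ = _ := by group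
    have h7 := hc _ (A.mul_mem hdA (A.inv_mem (hx _ hdA))) _ (A.mul_mem hb (A.inv_mem hdA))
    rw [h3, he, h7]
    group

variable [Fact p.Prime]

/-- **A Hall-Higman lemma, ring form.** -/
theorem hh_comm [CharP R p] (A : Subgroup Rˣ) (hc : ∀ a ∈ A, ∀ b ∈ A, a * b = b * a) (x : Rˣ) (hx : ∀ a ∈ A, x * a * x⁻¹ ∈ A)
    (hN : ∑ i ∈ Finset.range p, (x : R) ^ i = 0) (hord : ∀ a ∈ A, ∃ m : ℕ, m.Coprime p ∧ a ^ m = 1) :
    ∀ a ∈ A, x * a * x⁻¹ = a := by
  have hp : p.Prime := Fact.out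
  have hxp : x ^ p = 1 := by
    apply Units.ext
    have h1 := geom_sum_mul (x : R) p
    rw [hN, zero_mul] at h1
    simp only [Units.val_pow_eq_pow_val, Units.val_one]
    exact (sub_eq_zero.1 h1.symm)
  have hxi : ∀ (i : ℕ), ∀ a ∈ A, x ^ i * a * (x ^ i)⁻¹ ∈ A := by
    intro i
    induction i with
    | zero =>
      intro a ha
      simpa using ha
    | succ i ih =>
      intro a ha
      have h1 := hx _ (ih a ha)
      have h2 : x ^ (i + 1) * a * (x ^ (i + 1))⁻¹ = x * (x ^ i * a * (x ^ i)⁻¹) * x⁻¹ := by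
        rw [pow_succ']
        group
      rw [h2]
      exact h1
  intro b hb
  set y : Rˣ := b * (x * b * x⁻¹)⁻¹ with hy
  have hyA : y ∈ A := A.mul_mem hb (A.inv_mem (hx b hb))
  have hk : ∀ k, 1 ≤ k → k < p → ∃ h ∈ A, h * (x ^ k * h * (x ^ k)⁻¹)⁻¹ = y := by
    intro k hk1 hkp
    have hkc : Nat.Coprime k p := by
      rw [Nat.coprime_comm]
      exact (Nat.Prime.coprime_iff_not_dvd hp).2 (Nat.not_dvd_of_pos_of_lt hk1 hkp)
    obtain ⟨k', -, hk'⟩ := Nat.exists_mul_mod_eq_one_of_coprime hkc hp.one_lt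
    obtain ⟨h, hhA, he⟩ := hh_exists A hc (x ^ k) (hxi k) b hb k'
    refine ⟨h, hhA, he.trans ?_⟩
    have h1 : (x ^ k) ^ k' = x := by
      rw [← pow_mul, ← Nat.mod_add_div (k * k') p, hk', pow_add, pow_mul, hxp, one_pow, mul_one, pow_one]
    rw [h1]
  have hsum : ∀ a ∈ A, ∑ i ∈ Finset.range (p - 1 + 1), ((x ^ i * a * (x ^ i)⁻¹ : Rˣ) : R) * (x : R) ^ i = 0 := by
    intro a _
    rw [Nat.sub_add_cancel hp.one_le]
    have h1 : ∀ i : ℕ, ((x ^ i * a * (x ^ i)⁻¹ : Rˣ) : R) * (x : R) ^ i = (x : R) ^ i * (a : R) := by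
      intro i
      rw [← Units.val_pow_eq_pow_val, ← Units.val_mul, ← Units.val_mul]
      congr 1
      group
    simp only [h1]
    rw [← Finset.sum_mul, hN, zero_mul]
  have h1 := hh_step (p := p) A hc x hx y hk (p - 1) (by have := hp.pos; omega) (fun i => (x : R) ^ i) hsum
  simp only [pow_zero, mul_one] at h1
  have h2 : ((y : R) - 1) ^ p = 0 := by
    rw [← Nat.sub_add_cancel hp.one_le, pow_succ, h1, zero_mul]
  rw [sub_pow_char_of_commute p (Commute.one_right _), one_pow, sub_eq_zero] at h2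
  have h3 : y ^ p = 1 := by
    apply Units.ext
    simpa using h2
  obtain ⟨m, hm, hym⟩ := hord y hyA
  have h4 : orderOf y = 1 := Nat.eq_one_of_dvd_coprimes hm.symm (orderOf_dvd_of_pow_eq_one h3) (orderOf_dvd_of_pow_eq_one hym)
  have h5 : y = 1 := orderOf_eq_one_iff.1 h4
  have h6 : b * (x * b * x⁻¹)⁻¹ = 1 := h5
  rw [mul_inv_eq_one] at h6
  exact h6.symm

end Ring

section Aut

variable {p : ℕ} [Fact p.Prime]

theorem end_sum_apply {A ι : Type*} [AddCommGroup A] (s : Finset ι) (f : ι → AddMonoid.End A) (v : A) :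
    (∑ i ∈ s, f i) v = ∑ i ∈ s, f i v := by
  classical
  induction s using Finset.induction_on with
  | empty => rfl
  | insert a s ha ih =>
    rw [Finset.sum_insert ha, Finset.sum_insert ha]
    show (f a) v + (∑ i ∈ s, f i) v = _
    rw [ih]

/-- **A Hall-Higman lemma, for automorphisms of an elementary abelian group.** -/
theorem comm_of_hh_aut {M Y : Type*} [CommGroup M] [Nontrivial M] [Group Y] (ρ : Y →* MulAut M) (hMp : ∀ w : M, w ^ p = 1)
    (H : Subgroup Y) (hHn : H.Normal) (g : Y) (hN : ∀ w : M, ∏ i ∈ Finset.range p, ρ (g ^ i) w = 1)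
    (hcomm : ∀ a ∈ H, ∀ b ∈ H, ∀ w : M, ρ a (ρ b w) = ρ b (ρ a w))
    (hord : ∀ a ∈ H, ∃ m : ℕ, m.Coprime p ∧ ρ (a ^ m) = 1) :
    ∀ a ∈ H, ρ (g * a * g⁻¹) = ρ a := by
  have hp : p.Prime := Fact.out
  let R := AddMonoid.End (Additive M)
  let θ : MulAut M →* R :=
    { toFun := fun φ => φ.toMonoidHom.toAdditive
      map_one' := by
        ext v
        rfl
      map_mul' := by
        intro a b
        ext v
        rfl }
  have hθ : ∀ (φ : MulAut M) (v : Additive M), (θ φ) v = Additive.ofMul (φ (Additive.toMul v)) := fun _ _ => rfl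
  have hθinj : ∀ φ ψ : MulAut M, θ φ = θ ψ → φ = ψ := by
    intro φ ψ h
    ext w
    have h1 := DFunLike.congr_fun h (Additive.ofMul w)
    rw [hθ, hθ] at h1
    exact Additive.ofMul.injective h1
  let ρ' : Y →* Rˣ := (θ.comp ρ).toHomUnits
  have hρ' : ∀ t : Y, ((ρ' t : Rˣ) : R) = θ (ρ t) := fun t => rfl
  have hnt : Nontrivial R := by
    obtain ⟨w, hw⟩ := exists_ne (1 : M)
    refine ⟨⟨0, 1, ?_⟩⟩
    intro h
    have h1 := DFunLike.congr_fun h (Additive.ofMul w)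
    apply hw
    have h2 : (0 : Additive M) = Additive.ofMul w := h1
    exact (Additive.ofMul.injective h2).symm
  have hpR : ((p : ℕ) : R) = 0 := by
    refine AddMonoidHom.ext (fun v => ?_)
    show Additive.ofMul ((Additive.toMul v) ^ p) = 0
    rw [hMp]
    rfl
  haveI hchar : CharP R p := (CharP.charP_iff_prime_eq_zero hp).2 hpR
  set A : Subgroup Rˣ := H.map ρ' with hA
  have key := hh_comm (p := p) A ?_ (ρ' g) ?_ ?_ ?_
  · intro a ha
    have h1 := key (ρ' a) ⟨a, ha, rfl⟩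
    apply hθinj
    rw [← hρ', ← hρ', map_mul, map_mul, map_inv, h1]
  · rintro _ ⟨a, ha, rfl⟩ _ ⟨b, hb, rfl⟩
    apply Units.ext
    rw [Units.val_mul, Units.val_mul, hρ', hρ']
    refine AddMonoidHom.ext (fun v => ?_)
    show Additive.ofMul (ρ a (ρ b (Additive.toMul v))) = Additive.ofMul (ρ b (ρ a (Additive.toMul v)))
    rw [hcomm a ha b hb]
  · rintro _ ⟨a, ha, rfl⟩
    exact ⟨g * a * g⁻¹, hHn.conj_mem a ha g, by simp⟩
  · have h1 : ∀ i : ℕ, ((ρ' g : Rˣ) : R) ^ i = θ (ρ (g ^ i)) := by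
      intro i
      rw [hρ', ← map_pow, ← map_pow]
    simp only [h1]
    refine AddMonoidHom.ext (fun v => ?_)
    refine Eq.trans (end_sum_apply (Finset.range p) (fun x => θ (ρ (g ^ x))) v) ?_
    simp only [hθ]
    rw [← ofMul_prod, hN]
    rfl
  · rintro _ ⟨a, ha, rfl⟩
    obtain ⟨m, hm, ham⟩ := hord a ha
    refine ⟨m, hm, ?_⟩
    apply Units.ext
    rw [← map_pow, hρ', ham, map_one]
    rfl

/-- The Hall-Higman lemma for a chief factor. -/
theorem chief_comm_of_hh {X : Type*} [Group X] [Finite X] {U V : Subgroup X} (hc : IsChiefFactor U V) (hUp : IsPGroup p U)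
    (H : Subgroup X) (hHn : H.Normal) (g : X) (hit : iterCommutator U (zpowers g) (p - 1) ≤ V)
    [hVn : V.Normal] (hH : ∀ a ∈ H, ∀ b ∈ H, ⁅a, b⁆ ∈ chiefStab U V)
    (hord : ∀ a ∈ H, ∃ m : ℕ, m.Coprime p ∧ a ^ m ∈ chiefStab U V) :
    ∀ a ∈ H, ⁅a, g⁆ ∈ chiefStab U V := by
  classical
  haveI hUn : U.Normal := hc.2.1
  let π : X →* X ⧸ V := QuotientGroup.mk' V
  have hπ : ∀ z : X, π z = 1 ↔ z ∈ V := fun z => QuotientGroup.eq_one_iff z
  have hπs : Function.Surjective π := QuotientGroup.mk'_surjective V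
  have hker : π.ker = V := QuotientGroup.ker_mk' V
  set D : Subgroup (X ⧸ V) := U.map π with hD
  haveI hDn : D.Normal := hUn.map π hπs
  have hab : ∀ a ∈ D, ∀ b ∈ D, a * b = b * a := by
    rintro _ ⟨a, ha, rfl⟩ _ ⟨b, hb, rfl⟩
    have h1 := chief_trivial_of_normal_pGroup hUn hUp hc le_rfl a ha b hb
    have h2 := (hπ _).2 h1
    rw [map_commutatorElement, commutatorElement_eq_one_iff_mul_comm] at h2
    exact h2
  have hpw : ∀ w ∈ D, w ^ p ∈ (⊥ : Subgroup (X ⧸ V)) := by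
    rintro _ ⟨a, ha, rfl⟩
    rw [← map_pow, Subgroup.mem_bot]
    exact (hπ _).2 (pow_mem_of_chief hc hUp ha)
  have hit' : iterCommutator D (zpowers (π g)) (p - 1) ≤ ⊥ := by
    have h1 := iterCommutator_map π U (zpowers g) (p - 1)
    rw [MonoidHom.map_zpowers] at h1
    rw [← h1, le_bot_iff, Subgroup.map_eq_bot_iff, hker]
    exact hit
  have key := norm_mem (p := p) (D := D) (Y := ⊥) hab hpw (π g) hit'
  letI : CommGroup D := commGroupOfAb D hab
  have hDnt : Nontrivial D := by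
    obtain ⟨u, hu, huV⟩ := SetLike.exists_of_lt hc.1
    refine ⟨⟨⟨π u, ⟨u, hu, rfl⟩⟩, 1, ?_⟩⟩
    intro h
    exact huV ((hπ u).1 (congrArg Subtype.val h))
  let ρ : X →* MulAut D := (MulAut.conjNormal (H := D)).comp π
  have hρ : ∀ (t : X) (z : D), ((ρ t z : D) : X ⧸ V) = π t * z * (π t)⁻¹ := fun t z => MulAut.conjNormal_apply _ z
  have hstab : ∀ t : X, t ∈ chiefStab U V ↔ ρ t = 1 := by
    intro t
    constructor
    · intro ht
      ext z
      obtain ⟨z, u, hu, rfl⟩ := z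
      rw [hρ]
      have h1 := (hπ _).2 (ht u hu)
      rw [map_commutatorElement, commutatorElement_eq_one_iff_mul_comm] at h1
      simp only [MulAut.one_apply]
      rw [← h1, mul_inv_cancel_right]
    · intro ht u hu
      have h1 := hρ t ⟨π u, ⟨u, hu, rfl⟩⟩
      rw [ht] at h1
      have h2 : π u = π t * π u * (π t)⁻¹ := h1
      apply (hπ _).1
      rw [map_commutatorElement, commutatorElement_eq_one_iff_mul_comm]
      conv_lhs => rw [h2]
      group
  have hMp : ∀ w : D, w ^ p = 1 := by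
    intro w
    apply Subtype.ext
    exact Subgroup.mem_bot.1 (hpw _ w.2)
  have hN : ∀ w : D, ∏ i ∈ Finset.range p, ρ (g ^ i) w = 1 := by
    intro w
    have h1 := key w
    have h2 : ∀ i : ℕ, ρ (g ^ i) = MulAut.conjNormal ((π g) ^ i) := by
      intro i
      show MulAut.conjNormal (π (g ^ i)) = _
      rw [map_pow]
    simp only [h2]
    apply Subtype.ext
    exact Subgroup.mem_bot.1 h1
  have hcomm : ∀ a ∈ H, ∀ b ∈ H, ∀ w : D, ρ a (ρ b w) = ρ b (ρ a w) := by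
    intro a ha b hb w
    have h1 : ρ ⁅a, b⁆ = 1 := (hstab _).1 (hH a ha b hb)
    rw [map_commutatorElement, commutatorElement_eq_one_iff_mul_comm] at h1
    exact DFunLike.congr_fun h1 w
  have hord' : ∀ a ∈ H, ∃ m : ℕ, m.Coprime p ∧ ρ (a ^ m) = 1 := by
    intro a ha
    obtain ⟨m, hm, ham⟩ := hord a ha
    exact ⟨m, hm, (hstab _).1 ham⟩
  have hfin := comm_of_hh_aut ρ hMp H hHn g hN hcomm hord'
  intro a ha
  rw [hstab]
  have h1 := hfin a ha
  have h2 : ⁅a, g⁆ = a * (g * a * g⁻¹)⁻¹ := by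
    rw [commutatorElement_def]
    group
  rw [h2, map_mul, map_inv, h1, mul_inv_cancel]

end Aut

section Final

variable {p : ℕ} [Fact p.Prime]

local notation:max "cj[" g "]" H:max => Subgroup.map (MulEquiv.toMonoidHom (MulAut.conj g)) H

theorem mem_of_pow_mem_of_coprime {G : Type*} [Group G] (P : Subgroup G) {s : G} {m n : ℕ} (h : m.Coprime n) (hm : s ^ m ∈ P)
    (hn : s ^ n ∈ P) : s ∈ P := by
  have h1 : (1 : ℤ) = m * Nat.gcdA m n + n * Nat.gcdB m n := by
    have := Nat.gcd_eq_gcd_ab m n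
    rw [h] at this
    exact_mod_cast this
  have h2 : s = (s ^ m) ^ (Nat.gcdA m n) * (s ^ n) ^ (Nat.gcdB m n) := by
    rw [← zpow_natCast, ← zpow_natCast, ← zpow_mul, ← zpow_mul, ← zpow_add, ← h1, zpow_one]
  rw [h2]
  exact P.mul_mem (P.zpow_mem hm _) (P.zpow_mem hn _)

theorem mem_sup_of_le_normalizer {G : Type*} [Group G] {A B : Subgroup G} (hB : B ≤ normalizer (A : Set G)) {x : G} (hx : x ∈ A ⊔ B) :
    ∃ a ∈ A, ∃ b ∈ B, x = a * b := by
  let T : Subgroup G :=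
    { carrier := {x | ∃ a ∈ A, ∃ b ∈ B, x = a * b}
      one_mem' := ⟨1, A.one_mem, 1, B.one_mem, by simp⟩
      mul_mem' := by
        rintro _ _ ⟨a, ha, b, hb, rfl⟩ ⟨a', ha', b', hb', rfl⟩
        refine ⟨a * (b * a' * b⁻¹), A.mul_mem ha ((Subgroup.mem_normalizer_iff.1 (hB hb) a').1 ha'), b * b', B.mul_mem hb hb', ?_⟩
        group
      inv_mem' := by
        rintro _ ⟨a, ha, b, hb, rfl⟩
        refine ⟨b⁻¹ * a⁻¹ * b⁻¹⁻¹, (Subgroup.mem_normalizer_iff.1 (hB (B.inv_mem hb)) a⁻¹).1 (A.inv_mem ha), b⁻¹, B.inv_mem hb, ?_⟩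
        group }
  have hT : A ⊔ B ≤ T := by
    refine sup_le ?_ ?_
    · intro a ha
      exact ⟨a, ha, 1, B.one_mem, by simp⟩
    · intro b hb
      exact ⟨1, A.one_mem, b, hb, by simp⟩
  exact hT hx

/-- A normal Hall `p'`-subgroup complemented by a maximal Sylow `p`-subgroup is abelian. -/
theorem complement_abelian {Y : Type*} [Group Y] [Finite Y] {Sb : Subgroup Y} (hSp : IsPGroup p Sb)
    (hS : IsCoatom Sb) (Q : Subgroup Y) [hQ : Q.Normal] (hQc : (Nat.card Q).Coprime p) :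
    ∀ a ∈ Q, ∀ b ∈ Q, a * b = b * a := by
  classical
  have hp : p.Prime := Fact.out
  have hQS : ∀ x ∈ Q, x ∈ Sb → x = 1 := by
    intro x hxQ hxS
    have h1 : orderOf x ∣ Nat.card Q := Subgroup.orderOf_dvd_natCard Q hxQ
    obtain ⟨k, hk⟩ := hSp ⟨x, hxS⟩
    have h2 : x ^ p ^ k = 1 := congrArg Subtype.val hk
    have h3 : orderOf x ∣ p ^ k := orderOf_dvd_of_pow_eq_one h2
    exact orderOf_eq_one_iff.1 (Nat.eq_one_of_dvd_coprimes (hQc.pow_right k) h1 h3)
  by_cases hQb : Q = ⊥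
  · subst hQb
    intro a ha b hb
    rw [Subgroup.mem_bot.1 ha, Subgroup.mem_bot.1 hb]
  -- any nontrivial subgroup of `Q` normalized by `Sb` is `Q`
  have hfill : ∀ A : Subgroup Y, A ≤ Q → A ≠ ⊥ → Sb ≤ normalizer (A : Set Y) → A = Q := by
    intro A hAQ hA hSA
    refine le_antisymm hAQ ?_
    have hne : A ⊔ Sb ≠ Sb := by
      intro h
      apply hA
      rw [eq_bot_iff]
      intro x hx
      rw [Subgroup.mem_bot]
      refine hQS x (hAQ hx) ?_
      rw [← h]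
      exact Subgroup.mem_sup_left hx
    have htop : A ⊔ Sb = ⊤ := by
      by_contra hne'
      exact hne ((hS.2 _ (lt_of_le_of_ne le_sup_right (Ne.symm hne))) |> fun h => absurd h hne')
    intro a ha
    obtain ⟨a₁, ha₁, s, hs, rfl⟩ := mem_sup_of_le_normalizer hSA (htop ▸ Subgroup.mem_top a : a ∈ A ⊔ Sb)
    have hsQ : s ∈ Q := by
      have := Q.mul_mem (Q.inv_mem (hAQ ha₁)) ha
      simpa using this
    rw [hQS s hsQ hs, mul_one]
    exact ha₁
  haveI hQnt : Nontrivial ↥Q := (Subgroup.nontrivial_iff_ne_bot Q).2 hQb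
  obtain ⟨q, hq, hqd⟩ : ∃ q : ℕ, q.Prime ∧ q ∣ Nat.card Q := Nat.exists_prime_and_dvd (Finite.one_lt_card (α := ↥Q)).ne'
  haveI : Fact q.Prime := ⟨hq⟩
  obtain ⟨Q₀⟩ : Nonempty (Sylow q ↥Q) := inferInstance
  set Q' : Subgroup Y := (Q₀ : Subgroup ↥Q).map Q.subtype with hQ'
  have hfr : normalizer (Q' : Set Y) ⊔ Q = ⊤ := Sylow.normalizer_sup_eq_top Q₀
  have hindex : ¬ p ∣ (normalizer (Q' : Set Y)).index := by
    intro hd
    have h1 : (normalizer (Q' : Set Y)).index = (normalizer (Q' : Set Y)).relIndex (normalizer (Q' : Set Y) ⊔ Q) := by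
      rw [hfr, Subgroup.relIndex_top_right]
    rw [h1, relIndex_sup_of_normal] at hd
    have h2 : (normalizer (Q' : Set Y)).relIndex Q ∣ Nat.card Q := by
      unfold Subgroup.relIndex
      exact Subgroup.index_dvd_card _
    have h3 : p ∣ Nat.gcd (Nat.card Q) p := Nat.dvd_gcd (hd.trans h2) dvd_rfl
    rw [Nat.Coprime.gcd_eq_one hQc] at h3
    exact hp.one_lt.ne' (Nat.dvd_one.1 h3)
  have hrel : ¬ p ∣ (normalizer (Q' : Set Y)).relIndex ⊤ := by
    rwa [Subgroup.relIndex_top_right]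
  obtain ⟨m, -, hm⟩ := exists_conj_le_of_relIndex hrel le_top hSp
  set Q₁ : Subgroup Y := cj[m⁻¹] Q' with hQ₁
  have hSQ₁ : Sb ≤ normalizer (Q₁ : Set Y) := by
    rw [hQ₁, normalizer_conj_map, ← conj_map_le_iff _ _ m, conj_map_conj_map_inv]
    exact hm
  have hQ₁Q : Q₁ ≤ Q := by
    rintro _ ⟨_, ⟨y, hy, rfl⟩, rfl⟩
    exact hQ.conj_mem _ y.2 _
  have hQ₁b : Q₁ ≠ ⊥ := by
    intro h
    have h1 : Q' = ⊥ := (Subgroup.map_eq_bot_iff_of_injective _ (MulEquiv.injective _)).1 h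
    have h2 : (Q₀ : Subgroup ↥Q) = ⊥ := (Subgroup.map_eq_bot_iff_of_injective _ Q.subtype_injective).1 h1
    exact Q₀.ne_bot_of_dvd_card hqd h2
  have hQq : Q₁ = Q := hfill Q₁ hQ₁Q hQ₁b hSQ₁
  have hQ₁p : IsPGroup q Q₁ := (Q₀.isPGroup'.map _).map _
  have hQp : IsPGroup q ↥Q := hQq ▸ hQ₁p
  haveI : Group.IsNilpotent ↥Q := hQp.isNilpotent
  haveI hsolv : Group.IsSolvable ↥Q := inferInstance
  have hlt : commutator ↥Q < ⊤ := Group.IsSolvable.commutator_lt_top_of_nontrivial _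
  have hcomm : ⁅Q, Q⁆ = ⊥ := by
    by_contra hne
    have hn : (⁅Q, Q⁆).Normal := Subgroup.commutator_normal Q Q
    have heq := hfill ⁅Q, Q⁆ (Subgroup.commutator_le_left Q Q) hne (by
      rw [Subgroup.normalizer_eq_top_iff.2 hn]
      exact le_top)
    apply hlt.ne
    have h1 : (commutator ↥Q).map Q.subtype = ⁅Q, Q⁆ := by
      rw [_root_.commutator_def, Subgroup.map_commutator, ← MonoidHom.range_eq_map, Subgroup.range_subtype]
    apply Subgroup.map_injective Q.subtype_injective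
    rw [h1, heq, ← MonoidHom.range_eq_map, Subgroup.range_subtype]
  intro a ha b hb
  have h1 := Subgroup.commutator_mem_commutator ha hb
  rw [hcomm, Subgroup.mem_bot, commutatorElement_eq_one_iff_mul_comm] at h1
  exact h1

/-- The structure of a group with a normal `p`-subgroup `P₀` and a normal `H₀ ≥ P₀` with `H₀ / P₀` an abelian `p'`-group and `p`-group
quotient `Y / H₀`. -/
structure TData (p : ℕ) {Y : Type*} [Group Y] (P₀ H₀ : Subgroup Y) : Prop where
  Pn : P₀.Normal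
  Pp : IsPGroup p P₀
  Hn : H₀.Normal
  PH : P₀ ≤ H₀
  ord : ∀ a ∈ H₀, ∃ m : ℕ, m.Coprime p ∧ a ^ m ∈ P₀
  comm : ∀ a ∈ H₀, ∀ b ∈ H₀, ⁅a, b⁆ ∈ P₀
  top : ∀ y : Y, ∃ k : ℕ, y ^ p ^ k ∈ H₀

theorem TData.comap {Y Z : Type*} [Group Y] [Group Z] {P₀ H₀ : Subgroup Y} (t : TData p P₀ H₀) (i : Z →* Y) (hi : Function.Injective i) :
    TData p (P₀.comap i) (H₀.comap i) where
  Pn := t.Pn.comap i
  Pp := t.Pp.comap_of_injective i hi
  Hn := t.Hn.comap i
  PH := Subgroup.comap_mono t.PH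
  ord := by
    intro a ha
    obtain ⟨m, hm, h⟩ := t.ord (i a) ha
    refine ⟨m, hm, ?_⟩
    show i (a ^ m) ∈ P₀
    rwa [map_pow]
  comm := by
    intro a ha b hb
    show i ⁅a, b⁆ ∈ P₀
    rw [map_commutatorElement]
    exact t.comm _ ha _ hb
  top := by
    intro y
    obtain ⟨k, hk⟩ := t.top (i y)
    refine ⟨k, ?_⟩
    show i (y ^ p ^ k) ∈ H₀
    rwa [map_pow]

theorem TData.map {Y Z : Type*} [Group Y] [Group Z] {P₀ H₀ : Subgroup Y} (t : TData p P₀ H₀) (f : Y →* Z) (hf : Function.Surjective f) :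
    TData p (P₀.map f) (H₀.map f) where
  Pn := t.Pn.map f hf
  Pp := t.Pp.map f
  Hn := t.Hn.map f hf
  PH := Subgroup.map_mono t.PH
  ord := by
    rintro _ ⟨a, ha, rfl⟩
    obtain ⟨m, hm, h⟩ := t.ord a ha
    refine ⟨m, hm, ?_⟩
    rw [← map_pow]
    exact ⟨_, h, rfl⟩
  comm := by
    rintro _ ⟨a, ha, rfl⟩ _ ⟨b, hb, rfl⟩
    rw [← map_commutatorElement]
    exact ⟨_, t.comm a ha b hb, rfl⟩
  top := by
    intro y
    obtain ⟨x, rfl⟩ := hf y
    obtain ⟨k, hk⟩ := t.top x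
    refine ⟨k, ?_⟩
    rw [← map_pow]
    exact ⟨_, hk, rfl⟩

/-- An element of order a power of `p` acting trivially on `H₀ / P₀` lies in the `p`-core. -/
theorem TData.mem_pCore {Y : Type*} [Group Y] [Finite Y] {P₀ H₀ : Subgroup Y} (t : TData p P₀ H₀) {g : Y} (hg : ∃ k : ℕ, g ^ p ^ k = 1)
    (h : ∀ a ∈ H₀, ⁅a, g⁆ ∈ P₀) : g ∈ pCore p Y := by
  haveI := t.Pn
  haveI := t.Hn
  have hz : IsPGroup p (zpowers g) := by
    obtain ⟨k, hk⟩ := hg
    obtain ⟨j, -, hj⟩ := (Nat.dvd_prime_pow Fact.out).1 (orderOf_dvd_of_pow_eq_one hk)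
    exact IsPGroup.of_card (n := j) (by rw [Nat.card_zpowers, hj])
  obtain ⟨T, hT⟩ := hz.exists_le_sylow
  have hgT : g ∈ (T : Subgroup Y) := hT (mem_zpowers g)
  have hP₀T : P₀ ≤ T := normal_pGroup_le_sylow t.Pn t.Pp T
  have htop : (⊤ : Subgroup Y) ≤ H₀ ⊔ (T : Subgroup Y) := le_sup_of_pPower_mod (by
      rw [Subgroup.relIndex_top_right]
      exact T.not_dvd_index) (fun y _ => t.top y)
  set W : Subgroup Y := (T : Subgroup Y) ⊓ chiefStab H₀ P₀ with hW
  have hWn : W.Normal := by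
    constructor
    intro w hw y
    obtain ⟨a, ha, s, hs, rfl⟩ := Subgroup.mem_sup_of_normal_left.1 (htop (Subgroup.mem_top y))
    obtain ⟨hw1, hw2⟩ := Subgroup.mem_inf.1 hw
    set w' : Y := s * w * s⁻¹ with hw'
    have hw'T : w' ∈ (T : Subgroup Y) := T.1.mul_mem (T.1.mul_mem hs hw1) (T.1.inv_mem hs)
    have hw'Z : w' ∈ chiefStab H₀ P₀ := (chiefStab_normal H₀ P₀).conj_mem w hw2 s
    have h1 : a * s * w * (a * s)⁻¹ = ⁅a, w'⁆ * w' := by
      rw [commutatorElement_def, hw']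
      group
    rw [h1]
    refine Subgroup.mem_inf.2 ⟨T.1.mul_mem (hP₀T (hw'Z a ha)) hw'T, ?_⟩
    have h2 : ⁅a, w'⁆ * w' = a * w' * a⁻¹ := by
      rw [commutatorElement_def]
      group
    rw [h2]
    exact (chiefStab_normal H₀ P₀).conj_mem _ hw'Z a
  exact le_pCore hWn (T.isPGroup'.to_le inf_le_left) (Subgroup.mem_inf.2 ⟨hgT, h⟩)

/-- Normal subgroups between `O_p` and `H₀`, when the Sylow subgroup is maximal. -/
theorem TData.eq_of_between {Y : Type*} [Group Y] [Finite Y] {H₀ : Subgroup Y} (t : TData p (pCore p Y) H₀) {S : Subgroup Y}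
    (hSp : IsPGroup p S) (hS : IsCoatom S) (D : Subgroup Y) (hD : D.Normal) (hPD : pCore p Y ≤ D) (hDH : D ≤ H₀) :
    D = pCore p Y ∨ D = H₀ := by
  haveI := hD
  by_cases hDS : D ≤ S
  · exact Or.inl (le_antisymm (le_pCore hD (hSp.to_le hDS)) hPD)
  · right
    refine le_antisymm hDH ?_
    have hne : S ≠ D ⊔ S := by
      intro h
      apply hDS
      rw [h]
      exact le_sup_left
    have htop : D ⊔ S = ⊤ := hS.2 _ (lt_of_le_of_ne le_sup_right hne)
    intro a ha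
    obtain ⟨d, hd, s, hs, rfl⟩ := Subgroup.mem_sup_of_normal_left.1 (htop ▸ Subgroup.mem_top a : a ∈ D ⊔ S)
    have hsH : s ∈ H₀ := by
      have := H₀.mul_mem (H₀.inv_mem (hDH hd)) ha
      simpa using this
    obtain ⟨m, hm, hsm⟩ := t.ord s hsH
    obtain ⟨k, hk⟩ := hSp ⟨s, hs⟩
    have hk' : s ^ p ^ k = 1 := congrArg Subtype.val hk
    have hsP : s ∈ pCore p Y := mem_of_pow_mem_of_coprime _ (hm.pow_right k) hsm (by rw [hk']; exact Subgroup.one_mem _)
    exact D.mul_mem hd (hPD hsP)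

/-- The kernel of the action on a chief factor inside `H₀` lies in `O_p`. -/
theorem TData.inf_chiefStab_le {Y : Type*} [Group Y] [Finite Y] {H₀ : Subgroup Y} (t : TData p (pCore p Y) H₀) {S : Subgroup Y}
    (hSp : IsPGroup p S) (hSi : ¬ p ∣ S.index) (hS : IsCoatom S) {U V : Subgroup Y} (hc : IsChiefFactor U V) [hVn : V.Normal]
    (hU : U ≤ pCore p Y) {g : Y} (hn : ¬ ⁅U, zpowers g⁆ ≤ V) : H₀ ⊓ chiefStab U V ≤ pCore p Y := by
  haveI hUn : U.Normal := hc.2.1
  haveI hHn : H₀.Normal := t.Hn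
  have hPn : (pCore p Y).Normal := pCore_normal p Y
  have hPp : IsPGroup p (pCore p Y) := pCore_isPGroup p
  have hUp : IsPGroup p U := hPp.to_le hU
  have hPst : pCore p Y ≤ chiefStab U V := by
    intro y hy x hx
    have h1 := chief_trivial_of_normal_pGroup hPn hPp hc hU y hy x hx
    rw [← commutatorElement_inv]
    exact V.inv_mem h1
  set D : Subgroup Y := H₀ ⊓ chiefStab U V with hD
  have hDn : D.Normal := Subgroup.normal_inf_normal _ _
  rcases t.eq_of_between hSp hS D hDn (le_inf t.PH hPst) inf_le_left with h | h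
  · exact h.le
  · exfalso
    have hHst : H₀ ≤ chiefStab U V := by
      rw [← h]
      exact inf_le_right
    obtain ⟨x, hxU, hxV, hx⟩ := Cfsg.Agent.Lib.OddLocal.exists_fixed_mod_of_pGroup p V U S hc.1 hUp hSp
      (by rw [normalizer_eq_top]; exact le_top) (by rw [normalizer_eq_top]; exact le_top) (by rw [normalizer_eq_top]; exact le_top)
    have htop : (⊤ : Subgroup Y) ≤ H₀ ⊔ S := le_sup_of_pPower_mod (by
      rw [Subgroup.relIndex_top_right]
      exact hSi) (fun y _ => t.top y)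
    set W₁ : Subgroup Y := U ⊓ chiefStab ⊤ V with hW₁
    have hW₁n : W₁.Normal := Subgroup.normal_inf_normal _ _
    have hVW₁ : V ≤ W₁ := by
      refine le_inf hc.1.le ?_
      intro v hv y _
      rw [commutatorElement_def]
      exact V.mul_mem (hVn.conj_mem v hv y) (V.inv_mem hv)
    have hxW₁ : x ∈ W₁ := by
      refine Subgroup.mem_inf.2 ⟨hxU, ?_⟩
      intro y _
      obtain ⟨a, ha, s, hs, rfl⟩ := Subgroup.mem_sup_of_normal_left.1 (htop (Subgroup.mem_top y))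
      have h1 := hx s hs
      have h2 : ⁅x, a⁆ ∈ V := hHst ha x hxU
      have h3 : ⁅a, x⁆ ∈ V := by
        rw [← commutatorElement_inv]
        exact V.inv_mem h2
      have h4 : ⁅a * s, x⁆ = a * (s * x * s⁻¹ * x⁻¹) * a⁻¹ * ⁅a, x⁆ := by
        rw [commutatorElement_def, commutatorElement_def]
        group
      rw [h4]
      exact V.mul_mem (hVn.conj_mem _ h1 a) h3
    have hW₁U : W₁ = U := by
      rcases hc.2.2.2 W₁ hW₁n hVW₁ inf_le_left with h5 | h5
      · exact absurd (h5 ▸ hxW₁) hxV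
      · exact h5
    apply hn
    apply commutator_zpowers_le_iff.2
    intro u hu
    rw [← hW₁U] at hu
    have h6 := (Subgroup.mem_inf.1 hu).2 g (Subgroup.mem_top g)
    rw [← commutatorElement_inv]
    exact V.inv_mem h6

/-- The element `g` cannot exist. -/
theorem TData.false_of_chief_element {Y : Type*} [Group Y] [Finite Y] {H₀ : Subgroup Y} (t : TData p (pCore p Y) H₀) {S : Subgroup Y}
    (hSp : IsPGroup p S) (hSi : ¬ p ∣ S.index) (hS : IsCoatom S) {U V : Subgroup Y} (hc : IsChiefFactor U V)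
    (hU : U ≤ pCore p Y) {g : Y} (hgS : g ∈ S) (hgP : g ∉ pCore p Y) (hit : iterCommutator U (zpowers g) (p - 1) ≤ V)
    (hn : ¬ ⁅U, zpowers g⁆ ≤ V) : False := by
  haveI hVn : V.Normal := hc.2.2.1
  haveI hHn : H₀.Normal := t.Hn
  have hPn : (pCore p Y).Normal := pCore_normal p Y
  have hPp : IsPGroup p (pCore p Y) := pCore_isPGroup p
  have hUp : IsPGroup p U := hPp.to_le hU
  have hPst : pCore p Y ≤ chiefStab U V := by
    intro y hy x hx
    have h1 := chief_trivial_of_normal_pGroup hPn hPp hc hU y hy x hx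
    rw [← commutatorElement_inv]
    exact V.inv_mem h1
  have hcomm := chief_comm_of_hh hc hUp H₀ t.Hn g hit (fun a ha b hb => hPst (t.comm a ha b hb)) (fun a ha => by
    obtain ⟨m, hm, h⟩ := t.ord a ha
    exact ⟨m, hm, hPst h⟩)
  apply hgP
  obtain ⟨k, hk⟩ := hSp ⟨g, hgS⟩
  refine t.mem_pCore ⟨k, congrArg Subtype.val hk⟩ ?_
  intro a ha
  refine t.inf_chiefStab_le hSp hSi hS hc hU hn (Subgroup.mem_inf.2 ⟨?_, hcomm a ha⟩)
  have h1 : ⁅a, g⁆ = a * (g * a⁻¹ * g⁻¹) := by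
    rw [commutatorElement_def]
    group
  rw [h1]
  exact H₀.mul_mem ha (t.Hn.conj_mem _ (H₀.inv_mem ha) g)

/-- The data from a `p`-nilpotent quotient by `O_p`. -/
theorem exists_tdata {Y : Type*} [Group Y] [Finite Y] {S : Subgroup Y} (hSp : IsPGroup p S) (hSi : ¬ p ∣ S.index) (hS : IsCoatom S)
    (hq : HasNormalPComplement p (Y ⧸ pCore p Y)) : ∃ H₀ : Subgroup Y, TData p (pCore p Y) H₀ := by
  haveI hPn : (pCore p Y).Normal := pCore_normal p Y
  have hPp : IsPGroup p (pCore p Y) := pCore_isPGroup p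
  obtain ⟨Qb, hQn, hQc, k, hk⟩ := exists_hall_of_hasNormalPComplement hq
  let π : Y →* Y ⧸ pCore p Y := QuotientGroup.mk' (pCore p Y)
  have hπ : ∀ z : Y, π z = 1 ↔ z ∈ pCore p Y := fun z => QuotientGroup.eq_one_iff z
  have hPS : pCore p Y ≤ S := Cfsg.Agent.Lib.LocalEven.pCore_le_of_not_dvd_index hSi
  have hab := complement_abelian (p := p) (hSp.map π) (isCoatom_map_mk hS hPS) Qb hQc
  refine ⟨Qb.comap π, ⟨hPn, hPp, hQn.comap π, ?_, ?_, ?_, ?_⟩⟩
  · intro x hx
    show π x ∈ Qb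
    rw [(hπ x).2 hx]
    exact Qb.one_mem
  · intro a ha
    refine ⟨Nat.card Qb, hQc, ?_⟩
    apply (hπ _).1
    rw [map_pow]
    have := pow_card_eq_one' (x := (⟨π a, ha⟩ : Qb))
    exact congrArg Subtype.val this
  · intro a ha b hb
    apply (hπ _).1
    rw [map_commutatorElement, commutatorElement_eq_one_iff_mul_comm]
    exact hab _ ha _ hb
  · intro y
    refine ⟨k, ?_⟩
    show π (y ^ p ^ k) ∈ Qb
    rw [← hk, map_pow]
    exact Subgroup.pow_index_mem Qb (π y)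

/-- A normal subgroup with a central Sylow subgroup and `p`-group quotient. -/
theorem hnpc_of_central_sylow_normal {X : Type*} [Group X] [Finite X] (C : Subgroup X) [hC : C.Normal] (T : Subgroup X) (hTp : IsPGroup p T)
    (hTi : ¬ p ∣ T.index) (hcen : ∀ a ∈ T ⊓ C, ∀ x ∈ C, x * a = a * x) (hq : IsPGroup p (X ⧸ C)) : HasNormalPComplement p X := by
  have h1 : ¬ p ∣ (T ⊓ C).relIndex C := relIndex_inf_normal_not_dvd hTi
  obtain ⟨Q, hQ⟩ := exists_sylow_eq (S := (T ⊓ C).subgroupOf C) (hTp.to_le inf_le_left |>.comap_subtype) h1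
  have h2 : HasNormalPComplement p ↥C := by
    refine hnpc_of_central Q ?_
    intro a ha x
    rw [hQ] at ha
    exact Subtype.ext (hcen a ha x x.2)
  obtain ⟨k, hk⟩ := index_eq_pow_of_isPGroup_quotient hq
  exact hasNormalPComplement_of_normal_of_index hk h2

/-- The lower `K`-infinity subgroup for odd primes. -/
theorem kInfLower_phiN_sections {G : Type u} [Group G] [Finite G] (hp : p ≠ 2) :
    ∀ (K R : Subgroup G) [hR : (R.subgroupOf K).Normal], PhiN p kInfLower (↥K ⧸ R.subgroupOf K) := by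
  have hpr : p.Prime := Fact.out
  have hp3 : 2 ≤ p - 1 := by
    have := hpr.two_le
    omega
  refine phiN_sections (kInfLower_isCharPFunctor p) ?_
  intro K R hR hc hq T hT hNT
  by_cases hn : (inducedFunctor (G := (↥K ⧸ R.subgroupOf K)) kInfLower ((T : Subgroup (↥K ⧸ R.subgroupOf K)))).Normal
  · rw [(Subgroup.normalizer_eq_top_iff).2 hn] at hNT
    exact hnpc_of_injective (Subgroup.topEquiv (G := ↥K ⧸ R.subgroupOf K)).symm.toMonoidHom
      (Subgroup.topEquiv (G := ↥K ⧸ R.subgroupOf K)).symm.injective hNT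
  · exfalso
    obtain ⟨g, hgT, hgP, -, -, h3⟩ := exists_four_element T.isPGroup' T.not_dvd_index (Or.inl hn)
    obtain ⟨U, V, hUV, hU, hq', hne⟩ := h3 hc
    obtain ⟨H₀, t⟩ := exists_tdata T.isPGroup' T.not_dvd_index hT hq
    have hit : iterCommutator U (zpowers g) (p - 1) ≤ V :=
      (iterCommutator_le_of_le hUV.2.1 (zpowers g) hp3).trans hq'
    exact t.false_of_chief_element T.isPGroup' T.not_dvd_index hT hUV hU hgT hgP hit hne

/-- If `p'`-elements of `N(K)` centralize `K = K_∞(S)` then `N(K)` is `p`-nilpotent. -/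
theorem hnpc_normalizer_kInfLower {G : Type u} [Group G] [Finite G] (S : Sylow p G)
    (h : ∀ g ∈ normalizer ((inducedFunctor kInfLower (S : Subgroup G) : Subgroup G) : Set G), (orderOf g).Coprime p →
      g ∈ centralizer ((inducedFunctor kInfLower (S : Subgroup G) : Subgroup G) : Set G)) :
    HasNormalPComplement p ↥(normalizer ((inducedFunctor kInfLower (S : Subgroup G) : Subgroup G) : Set G)) := by
  have hSp := S.isPGroup'
  have hWc : IsConjugacyFunctor p (inducedFunctor (G := G) kInfLower) := isConjugacyFunctor_induced (kInfLower_isCharPFunctor p)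
  set K : Subgroup G := inducedFunctor kInfLower (S : Subgroup G) with hK
  have hKS : K ≤ S := (hWc _ hSp).1
  set N : Subgroup G := normalizer (K : Set G) with hN
  have hSN : (S : Subgroup G) ≤ N := Subgroup.le_normalizer.trans (normalizer_le_normalizer_functor hWc hSp)
  set T : Subgroup ↥N := (S : Subgroup G).subgroupOf N with hT
  set C : Subgroup ↥N := (centralizer (K : Set G)).subgroupOf N with hC
  haveI hCn : C.Normal := centralizer_subgroupOf_normal K
  have hpr : p.Prime := Fact.out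
  refine hnpc_of_central_sylow_normal C T hSp.comap_subtype ?_ ?_ ?_
  · intro hd
    exact S.not_dvd_index (hd.trans (Subgroup.relIndex_dvd_index_of_le hSN))
  · intro a ha x hx
    obtain ⟨ha1, ha2⟩ := Subgroup.mem_inf.1 ha
    have ha1' : (a : G) ∈ (S : Subgroup G) := ha1
    have ha2' : (a : G) ∈ centralizer (K : Set G) := ha2
    have hx' : (x : G) ∈ centralizer (K : Set G) := hx
    have hcen := (Cfsg.Agent.S1978.result (P := ↥(S : Subgroup G)) (p := p) hSp).1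
    have h1 : (⟨(a : G), ha1'⟩ : ↥(S : Subgroup G)) ∈ centralizer ((kInfLower ↥(S : Subgroup G) : Subgroup _) : Set ↥(S : Subgroup G)) := by
      rw [Subgroup.mem_centralizer_iff]
      intro y hy
      have h2 := (Subgroup.mem_centralizer_iff.1 ha2') (y : G) ⟨y, hy, rfl⟩
      exact Subtype.ext h2
    have h3 : (a : G) ∈ K := ⟨_, hcen h1, rfl⟩
    have h4 := (Subgroup.mem_centralizer_iff.1 hx') (a : G) h3
    exact Subtype.ext h4.symm
  · intro q
    obtain ⟨y, rfl⟩ := QuotientGroup.mk'_surjective C q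
    obtain ⟨u, v, rfl, -, -, ⟨k, hk⟩, hv, -⟩ := Cfsg.Agent.Lib.LocalEven.exists_p_decomp (p := p) y (isOfFinOrder_of_finite y)
    refine ⟨k, ?_⟩
    have hvC : v ∈ C := by
      show (v : G) ∈ centralizer (K : Set G)
      exact h (v : G) v.2 (by rwa [Subgroup.orderOf_coe])
    have hv1 : QuotientGroup.mk' C v = 1 := (QuotientGroup.eq_one_iff v).2 hvC
    rw [map_mul, hv1, mul_one, ← map_pow, ← hk, pow_orderOf_eq_one, map_one]

end Final

end Cfsg.Agent.Lib.Tech
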