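import Mathlib
import Cfsg.Prelude.Def_KGroupFacts

/-!
# Outer automorphisms of a simple group with a subgroup of prime index

If `G` is simple with a subgroup `H` of prime index `p` and `u` has order `p`, then the
automorphisms of `G` fixing `u` commute: each of them is induced on the permutation module
`F_p[G/H]` by an operator commuting with `u`, and the commutant of `u` is commutative because
`⟨u⟩` is transitive on `G/H`.
-/

set_option autoImplicit false

namespace Cfsg.Agent.Lib.Tech.PrimeIndexOut

open Cfsg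
open scoped Pointwise

/-- Operators commuting with a commuting family having a cyclic vector commute with each other. -/
theorem comm_of_cyclic {k V : Type*} [Field k] [AddCommGroup V] [Module k V]
    (S : Set (V →ₗ[k] V)) (hS : ∀ s ∈ S, ∀ t ∈ S, s * t = t * s) (v₀ : V)
    (hv : Submodule.span k ((fun s : V →ₗ[k] V => s v₀) '' S) = ⊤)
    (A B : V →ₗ[k] V) (hA : ∀ s ∈ S, A * s = s * A) (hB : ∀ s ∈ S, B * s = s * B) :
    A * B = B * A := by
  have key : ∀ y : V, ∃ C ∈ Submodule.span k S, C v₀ = y := by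
    intro y
    have hy : y ∈ Submodule.span k ((fun s : V →ₗ[k] V => s v₀) '' S) := by rw [hv]; trivial
    induction hy using Submodule.span_induction with
    | mem x hx => obtain ⟨s, hs, rfl⟩ := hx; exact ⟨s, Submodule.subset_span hs, rfl⟩
    | zero => exact ⟨0, Submodule.zero_mem _, rfl⟩
    | add x y _ _ hx hy =>
      obtain ⟨C, hC, rfl⟩ := hx; obtain ⟨D, hD, rfl⟩ := hy
      exact ⟨C + D, Submodule.add_mem _ hC hD, rfl⟩
    | smul a x _ hx =>
      obtain ⟨C, hC, rfl⟩ := hx
      exact ⟨a • C, Submodule.smul_mem _ a hC, rfl⟩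
  have comm_span : ∀ X : V →ₗ[k] V, (∀ s ∈ S, X * s = s * X) →
      ∀ C ∈ Submodule.span k S, X * C = C * X := by
    intro X hX C hC
    induction hC using Submodule.span_induction with
    | mem x hx => exact hX x hx
    | zero => simp
    | add x y _ _ hx hy => rw [mul_add, add_mul, hx, hy]
    | smul a x _ hx => rw [mul_smul_comm, smul_mul_assoc, hx]
  have comm_SS : ∀ C ∈ Submodule.span k S, ∀ D ∈ Submodule.span k S, C * D = D * C := by
    intro C hC D hD
    have h1 : ∀ s ∈ S, C * s = s * C := by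
      intro s hs
      exact (comm_span s (fun t ht => hS s hs t ht) C hC).symm
    exact comm_span C h1 D hD
  obtain ⟨CA, hCA, hCA'⟩ := key (A v₀)
  obtain ⟨CB, hCB, hCB'⟩ := key (B v₀)
  have h0 : A (B v₀) = B (A v₀) := by
    have h1 : A (B v₀) = CB (CA v₀) := by
      rw [← hCB', hCA' ]
      exact LinearMap.congr_fun (comm_span A hA CB hCB) v₀
    have h2 : B (A v₀) = CA (CB v₀) := by
      rw [← hCA', hCB']
      exact LinearMap.congr_fun (comm_span B hB CA hCA) v₀
    rw [h1, h2]
    exact LinearMap.congr_fun (comm_SS CB hCB CA hCA) v₀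
  refine LinearMap.ext fun x => ?_
  obtain ⟨C, hC, rfl⟩ := key x
  have h3 : ∀ s ∈ S, (A * B) * s = s * (A * B) := by
    intro s hs
    rw [mul_assoc, hB s hs, ← mul_assoc, hA s hs, mul_assoc]
  have h4 : ∀ s ∈ S, (B * A) * s = s * (B * A) := by
    intro s hs
    rw [mul_assoc, hA s hs, ← mul_assoc, hB s hs, mul_assoc]
  have e1 : (A * B) (C v₀) = C ((A * B) v₀) := LinearMap.congr_fun (comm_span _ h3 C hC) v₀
  have e2 : (B * A) (C v₀) = C ((B * A) v₀) := LinearMap.congr_fun (comm_span _ h4 C hC) v₀
  rw [e1, e2]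
  show C (A (B v₀)) = C (B (A v₀))
  rw [h0]

section module

variable {G : Type*} [Group G] (H : Subgroup G) (p : ℕ) [Fact p.Prime]

/-- The permutation operators on `F_p[G/H]`. -/
noncomputable def rho (g : G) : ((G ⧸ H) →₀ ZMod p) →ₗ[ZMod p] ((G ⧸ H) →₀ ZMod p) :=
  Finsupp.lmapDomain (ZMod p) (ZMod p) (fun x : G ⧸ H => g • x)

theorem rho_single (g : G) (x : G ⧸ H) (c : ZMod p) :
    rho H p g (Finsupp.single x c) = Finsupp.single (g • x) c := by
  simp [rho, Finsupp.mapDomain_single]

theorem rho_mul (g g' : G) : rho H p (g * g') = rho H p g * rho H p g' := by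
  refine Finsupp.lhom_ext fun x c => ?_
  simp [rho_single, mul_smul]

theorem rho_one : rho H p (1 : G) = 1 := by
  refine Finsupp.lhom_ext fun x c => ?_
  simp [rho_single]

theorem rho_mul_apply (g g' : G) (f : (G ⧸ H) →₀ ZMod p) :
    rho H p (g * g') f = rho H p g (rho H p g' f) := by
  rw [rho_mul]; rfl

/-- The augmentation. -/
noncomputable def eps : ((G ⧸ H) →₀ ZMod p) →ₗ[ZMod p] ZMod p :=
  Finsupp.linearCombination (ZMod p) (fun _ => (1 : ZMod p))

theorem eps_single (x : G ⧸ H) (c : ZMod p) : eps H p (Finsupp.single x c) = c := by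
  simp [eps, Finsupp.linearCombination_single]

theorem eps_rho (g : G) (f : (G ⧸ H) →₀ ZMod p) : eps H p (rho H p g f) = eps H p f := by
  have : eps H p ∘ₗ rho H p g = eps H p := by
    refine Finsupp.lhom_ext fun x c => ?_
    simp [rho_single, eps_single]
  exact LinearMap.congr_fun this f

variable [Fintype H]

/-- The averaged vector fixed by `α(H)`. -/
noncomputable def w (α : MulAut G) : (G ⧸ H) →₀ ZMod p :=
  (Fintype.card H : ZMod p)⁻¹ • ∑ h : H, rho H p (α (h : G)) (Finsupp.single ((1 : G) : G ⧸ H) 1)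

theorem rho_w (α : MulAut G) (h : H) : rho H p (α (h : G)) (w H p α) = w H p α := by
  unfold w
  rw [map_smul, map_sum]
  congr 1
  refine Fintype.sum_equiv (Equiv.mulLeft h) _ _ fun h' => ?_
  simp only [Equiv.coe_mulLeft, Subgroup.coe_mul, map_mul, rho_mul_apply]

theorem eps_w (hH : (Fintype.card H : ZMod p) ≠ 0) (α : MulAut G) : eps H p (w H p α) = 1 := by
  unfold w
  rw [map_smul, map_sum]
  simp only [eps_rho, eps_single, Finset.sum_const, Finset.card_univ, nsmul_eq_mul, mul_one,
    smul_eq_mul]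
  exact inv_mul_cancel₀ hH

/-- The value of `T α` on a coset. -/
noncomputable def tt (α : MulAut G) (x : G ⧸ H) : (G ⧸ H) →₀ ZMod p :=
  Quotient.liftOn' x (fun g => rho H p (α g) (w H p α)) (by
    intro a b hab
    have hab' : a⁻¹ * b ∈ H := QuotientGroup.leftRel_apply.mp hab
    have e : b = a * (a⁻¹ * b) := by group
    show rho H p (α a) (w H p α) = rho H p (α b) (w H p α)
    conv_rhs => rw [e, map_mul, rho_mul_apply]
    rw [rho_w H p α ⟨_, hab'⟩])

theorem tt_mk (α : MulAut G) (g : G) : tt H p α (g : G ⧸ H) = rho H p (α g) (w H p α) := rfl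

/-- The intertwiner. -/
noncomputable def T (α : MulAut G) : ((G ⧸ H) →₀ ZMod p) →ₗ[ZMod p] ((G ⧸ H) →₀ ZMod p) :=
  Finsupp.linearCombination (ZMod p) (tt H p α)

theorem T_single (α : MulAut G) (g : G) (c : ZMod p) :
    T H p α (Finsupp.single (g : G ⧸ H) c) = c • rho H p (α g) (w H p α) := by
  simp [T, Finsupp.linearCombination_single, tt_mk]

theorem T_rho (α : MulAut G) (g : G) (f : (G ⧸ H) →₀ ZMod p) :
    T H p α (rho H p g f) = rho H p (α g) (T H p α f) := by
  have : T H p α ∘ₗ rho H p g = rho H p (α g) ∘ₗ T H p α := by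
    refine Finsupp.lhom_ext fun x c => ?_
    induction x using QuotientGroup.induction_on with
    | H g' =>
      simp only [LinearMap.comp_apply, rho_single]
      have e : g • ((g' : G) : G ⧸ H) = ((g * g' : G) : G ⧸ H) := rfl
      rw [e, T_single, T_single, map_smul, map_mul, rho_mul_apply]
  exact LinearMap.congr_fun this f

theorem eps_T (hH : (Fintype.card H : ZMod p) ≠ 0) (α : MulAut G) (f : (G ⧸ H) →₀ ZMod p) :
    eps H p (T H p α f) = eps H p f := by
  have : eps H p ∘ₗ T H p α = eps H p := by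
    refine Finsupp.lhom_ext fun x c => ?_
    induction x using QuotientGroup.induction_on with
    | H g' =>
      simp only [LinearMap.comp_apply]
      rw [T_single, map_smul, eps_rho, eps_w H p hH, eps_single, smul_eq_mul, mul_one]
  exact LinearMap.congr_fun this f

/-- Two automorphisms fixing `u` have commuting intertwiners when `⟨u⟩` is transitive on `G/H`. -/
theorem T_comm (u : G) (htrans : ∀ x : G ⧸ H, ∃ n : ℤ, u ^ n • ((1 : G) : G ⧸ H) = x)
    (α β : MulAut G) (hα : α u = u) (hβ : β u = u) :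
    T H p α * T H p β = T H p β * T H p α := by
  classical
  refine comm_of_cyclic (Set.range fun n : ℤ => rho H p (u ^ n)) ?_
    (Finsupp.single ((1 : G) : G ⧸ H) 1) ?_ _ _ ?_ ?_
  · rintro _ ⟨n, rfl⟩ _ ⟨m, rfl⟩
    simp only
    rw [← rho_mul, ← rho_mul, ← zpow_add, ← zpow_add, add_comm]
  · rw [eq_top_iff]
    intro f _
    induction f using Finsupp.induction_linear with
    | zero => exact Submodule.zero_mem _
    | add f g hf hg => exact Submodule.add_mem _ (hf trivial) (hg trivial)
    | single x c =>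
      obtain ⟨n, rfl⟩ := htrans x
      have e : Finsupp.single (u ^ n • ((1 : G) : G ⧸ H)) c
          = c • (rho H p (u ^ n)) (Finsupp.single ((1 : G) : G ⧸ H) 1) := by
        rw [rho_single]; simp
      rw [e]
      refine Submodule.smul_mem _ c (Submodule.subset_span ?_)
      exact ⟨_, ⟨n, rfl⟩, rfl⟩
  · rintro _ ⟨n, rfl⟩
    refine LinearMap.ext fun f => ?_
    show T H p α (rho H p (u ^ n) f) = rho H p (u ^ n) (T H p α f)
    rw [T_rho, map_zpow, hα]
  · rintro _ ⟨n, rfl⟩
    refine LinearMap.ext fun f => ?_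
    show T H p β (rho H p (u ^ n) f) = rho H p (u ^ n) (T H p β f)
    rw [T_rho, map_zpow, hβ]

/-- The heart: automorphisms of a simple group fixing `u` commute. -/
theorem comm_of_fix [Finite G] [IsSimpleGroup G] (hcard : Nat.card (G ⧸ H) = p)
    (hH : (Fintype.card H : ZMod p) ≠ 0)
    (u : G) (htrans : ∀ x : G ⧸ H, ∃ n : ℤ, u ^ n • ((1 : G) : G ⧸ H) = x)
    (α β : MulAut G) (hα : α u = u) (hβ : β u = u) : α * β = β * α := by
  classical
  set Z : ((G ⧸ H) →₀ ZMod p) →ₗ[ZMod p] ((G ⧸ H) →₀ ZMod p) := T H p α * T H p β with hZ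
  have hZ' : Z = T H p β * T H p α := T_comm H p u htrans α β hα hβ
  have hZ1 : ∀ (g : G) (f : (G ⧸ H) →₀ ZMod p),
      Z (rho H p g f) = rho H p ((α * β) g) (Z f) := by
    intro g f
    rw [hZ]
    show T H p α (T H p β (rho H p g f)) = rho H p (α (β g)) (T H p α (T H p β f))
    rw [T_rho, T_rho]
  have hZ2 : ∀ (g : G) (f : (G ⧸ H) →₀ ZMod p),
      Z (rho H p g f) = rho H p ((β * α) g) (Z f) := by
    intro g f
    rw [hZ']
    show T H p β (T H p α (rho H p g f)) = rho H p (β (α g)) (T H p β (T H p α f))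
    rw [T_rho, T_rho]
  -- the kernel on the image of `Z`
  let K : Subgroup G :=
    { carrier := {x | ∀ f, rho H p x (Z f) = Z f}
      one_mem' := fun f => by rw [rho_one]; rfl
      mul_mem' := fun {a b} ha hb f => by
        rw [rho_mul_apply, hb f, ha f]
      inv_mem' := fun {a} ha f => by
        have := ha f
        calc rho H p a⁻¹ (Z f) = rho H p a⁻¹ (rho H p a (Z f)) := by rw [this]
          _ = Z f := by rw [← rho_mul_apply, inv_mul_cancel, rho_one]; rfl }
  have hKmem : ∀ x, x ∈ K ↔ ∀ f, rho H p x (Z f) = Z f := fun x => Iff.rfl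
  have hKn : K.Normal := by
    constructor
    intro x hx g f
    have e1 : rho H p g⁻¹ (Z f) = Z (rho H p ((α * β)⁻¹ g⁻¹) f) := by
      rw [hZ1]; simp
    calc rho H p (g * x * g⁻¹) (Z f)
        = rho H p g (rho H p x (rho H p g⁻¹ (Z f))) := by
          rw [rho_mul_apply, rho_mul_apply]
      _ = rho H p g (rho H p g⁻¹ (Z f)) := by rw [e1, hx]
      _ = Z f := by rw [← rho_mul_apply, mul_inv_cancel, rho_one]; rfl
  rcases IsSimpleGroup.eq_bot_or_eq_top_of_normal K hKn with hK | hK
  · refine MulEquiv.ext fun g => ?_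
    have hmem : ((α * β) g)⁻¹ * (β * α) g ∈ K := by
      intro f
      rw [rho_mul_apply, ← hZ2, hZ1, ← rho_mul_apply, inv_mul_cancel, rho_one]; rfl
    rw [hK, Subgroup.mem_bot] at hmem
    exact (inv_mul_eq_one.mp hmem)
  · exfalso
    set z := Z (Finsupp.single ((1 : G) : G ⧸ H) 1) with hz
    have hfix : ∀ g : G, rho H p g z = z := by
      intro g
      have : g ∈ K := by rw [hK]; trivial
      exact this _
    have hval : ∀ (g : G) (x : G ⧸ H), z (g • x) = z x := by
      intro g x
      have h1 := DFunLike.congr_fun (hfix g) (g • x)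
      rw [← h1]
      show (Finsupp.mapDomain (fun y : G ⧸ H => g • y) z) (g • x) = z x
      exact Finsupp.mapDomain_apply (MulAction.injective g) z x
    have heps1 : eps H p z = 1 := by
      rw [hz, hZ]
      show eps H p (T H p α (T H p β _)) = 1
      rw [eps_T H p hH, eps_T H p hH, eps_single]
    haveI : Fintype (G ⧸ H) := Fintype.ofFinite _
    have heps0 : eps H p z = 0 := by
      have h2 : eps H p z = ∑ x : G ⧸ H, z x := by
        simp [eps, Finsupp.linearCombination_apply, Finsupp.sum_fintype]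
      have h3 : ∀ x : G ⧸ H, z x = z ((1 : G) : G ⧸ H) := by
        intro x
        induction x using QuotientGroup.induction_on with
        | H g =>
          have e : ((g : G) : G ⧸ H) = g • ((1 : G) : G ⧸ H) := by
            show ((g : G) : G ⧸ H) = ((g * 1 : G) : G ⧸ H)
            rw [mul_one]
          rw [e, hval]
      rw [h2, Finset.sum_congr rfl (fun x _ => h3 x), Finset.sum_const, Finset.card_univ,
        ← Nat.card_eq_fintype_card, hcard]
      simp
    rw [heps0] at heps1
    exact zero_ne_one heps1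

end module

end Cfsg.Agent.Lib.Tech.PrimeIndexOut
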