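import Cfsg.Agent.Lib.Tech.PrimeIndexOut

set_option autoImplicit false

namespace Cfsg.Agent.Lib.Tech.PrimeIndexOut2

open Cfsg Cfsg.Agent.Lib.Tech.PrimeIndexOut
open scoped Pointwise commutatorElement

variable {G : Type*} [Group G] [Finite G]

/-- Subgroups of order `p` are conjugate when `p² ∤ |G|`. -/
theorem exists_conj_zpowers {p : ℕ} [hp : Fact p.Prime] (u : G) (hu : orderOf u = p)
    (hpp : ¬ p ^ 2 ∣ Nat.card G) (φ : MulAut G) :
    ∃ g : G, ((Subgroup.zpowers u).map (MulAut.conj g * φ).toMonoidHom) = Subgroup.zpowers u := by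
  classical
  have hpp' : p.Prime := hp.out
  have hG0 : Nat.card G ≠ 0 := Nat.card_pos.ne'
  have hA : Nat.card (Subgroup.zpowers u) = p := by rw [Nat.card_zpowers, hu]
  have hdvd : p ∣ Nat.card G := by rw [← hA]; exact Subgroup.card_subgroup_dvd_card _
  have hfact : (Nat.card G).factorization p = 1 := by
    have h1 : 1 ≤ (Nat.card G).factorization p :=
      (hpp'.pow_dvd_iff_le_factorization hG0).mp (by simpa using hdvd)
    have h2 : ¬ 2 ≤ (Nat.card G).factorization p := fun h =>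
      hpp ((hpp'.pow_dvd_iff_le_factorization hG0).mpr h)
    omega
  set B : Subgroup G := (Subgroup.zpowers u).map φ.toMonoidHom with hB
  have hBc : Nat.card B = p := by
    rw [hB, Subgroup.card_map_of_injective φ.injective, hA]
  let PA : Sylow p G := Sylow.ofCard (Subgroup.zpowers u) (by rw [hA, hfact, pow_one])
  let PB : Sylow p G := Sylow.ofCard B (by rw [hBc, hfact, pow_one])
  obtain ⟨g, hg⟩ := MulAction.exists_smul_eq G PB PA
  refine ⟨g, ?_⟩
  have h1 : (g • PB : Sylow p G) = PA := hg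
  have h2 : ((g • PB : Sylow p G) : Subgroup G) = Subgroup.zpowers u := by rw [h1]; rfl
  rw [Sylow.coe_subgroup_smul] at h2
  have h3 : (Subgroup.zpowers u).map (MulAut.conj g * φ).toMonoidHom = MulAut.conj g • B := by
    ext x
    constructor
    · rintro ⟨y, hy, rfl⟩
      exact ⟨φ y, ⟨y, hy, rfl⟩, rfl⟩
    · rintro ⟨y, ⟨z, hz, rfl⟩, rfl⟩
      exact ⟨z, hz, rfl⟩
  rw [h3]
  exact h2

theorem main [IsSimpleGroup G] (H : Subgroup G) (hH : H.index.Prime) :
    Group.IsSolvable (Cfsg.Out G) := by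
  classical
  set p := H.index with hpdef
  haveI hp : Fact p.Prime := ⟨hH⟩
  haveI : Fintype H := Fintype.ofFinite H
  have hcard : Nat.card (G ⧸ H) = p := (Subgroup.index_eq_card H).symm
  have hHtop : H ≠ ⊤ := by
    rintro rfl
    rw [hpdef, Subgroup.index_top] at hH
    exact Nat.not_prime_one hH
  -- the permutation action is faithful
  have hinj : Function.Injective (MulAction.toPermHom G (G ⧸ H)) := by
    rw [injective_iff_map_eq_one]
    have hk : (MulAction.toPermHom G (G ⧸ H)).ker = ⊥ := by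
      rcases IsSimpleGroup.eq_bot_or_eq_top_of_normal _
        (MonoidHom.normal_ker (MulAction.toPermHom G (G ⧸ H))) with h | h
      · exact h
      · exfalso
        apply hHtop
        rw [eq_top_iff]
        intro g _
        have hg : g ∈ (MulAction.toPermHom G (G ⧸ H)).ker := by rw [h]; trivial
        have hg1 : MulAction.toPermHom G (G ⧸ H) g = 1 := hg
        have hg2 : g • ((1 : G) : G ⧸ H) = ((1 : G) : G ⧸ H) := by
          have h' := Equiv.congr_fun hg1 ((1 : G) : G ⧸ H)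
          exact h'
        have hg3 : ((g * 1 : G) : G ⧸ H) = ((1 : G) : G ⧸ H) := hg2
        rw [mul_one] at hg3
        have h5 := QuotientGroup.eq.mp hg3
        simpa using h5
    intro g hg
    have : g ∈ (MulAction.toPermHom G (G ⧸ H)).ker := hg
    rw [hk] at this
    exact this
  have hdvdfac : Nat.card G ∣ p.factorial := by
    have h1 := Subgroup.card_dvd_of_injective _ hinj
    rw [Nat.card_perm, hcard] at h1
    exact h1
  have hmul : Nat.card H * p = Nat.card G := Subgroup.card_mul_index H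
  have hpp : ¬ p ^ 2 ∣ Nat.card G := by
    intro h
    have h2 : p ^ 2 ∣ p.factorial := h.trans hdvdfac
    have h3 : p.factorial = p * (p - 1).factorial := by
      rw [Nat.mul_factorial_pred hH.ne_zero]
    rw [h3, pow_two] at h2
    have h4 : p ∣ (p - 1).factorial := Nat.dvd_of_mul_dvd_mul_left hH.pos h2
    have h5 := (hH.dvd_factorial).mp h4
    have := hH.pos
    omega
  have hpH : ¬ p ∣ Nat.card H := by
    intro h
    apply hpp
    rw [← hmul, pow_two]
    exact Nat.mul_dvd_mul_right h p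
  have hHz : (Fintype.card H : ZMod p) ≠ 0 := by
    rw [← Nat.card_eq_fintype_card, Ne, ZMod.natCast_eq_zero_iff]
    exact hpH
  have hdvd : p ∣ Nat.card G := ⟨Nat.card H, by rw [← hmul, mul_comm]⟩
  obtain ⟨u, hu⟩ := exists_prime_orderOf_dvd_card' p hdvd
  -- `⟨u⟩` is transitive on `G/H`
  have htrans : ∀ x : G ⧸ H, ∃ n : ℤ, u ^ n • ((1 : G) : G ⧸ H) = x := by
    have hA : Nat.card (Subgroup.zpowers u) = p := by rw [Nat.card_zpowers, hu]
    have hc : Subgroup.IsComplement' (Subgroup.zpowers u) H := by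
      refine Subgroup.isComplement'_of_coprime ?_ ?_
      · rw [hA, mul_comm, hmul]
      · rw [hA]
        exact (Nat.Prime.coprime_iff_not_dvd hH).mpr hpH
    intro x
    induction x using QuotientGroup.induction_on with
    | H g =>
      obtain ⟨⟨a, b⟩, hab⟩ := hc.2 g
      obtain ⟨n, hn⟩ := Subgroup.mem_zpowers_iff.mp a.2
      refine ⟨n, ?_⟩
      have hab' : (a : G) * (b : G) = g := hab
      rw [hn]
      show (((a : G) * 1 : G) : G ⧸ H) = ((g : G) : G ⧸ H)
      rw [mul_one, ← hab']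
      refine QuotientGroup.eq.mpr ?_
      simp
  have hcomm : ∀ α β : MulAut G, α u = u → β u = u → α * β = β * α :=
    fun α β hα hβ => comm_of_fix H p hcard hHz u htrans α β hα hβ
  -- the subgroup of automorphisms fixing `u`
  let C : Subgroup (MulAut G) :=
    { carrier := {φ | φ u = u}
      one_mem' := rfl
      mul_mem' := fun {a b} ha hb => by
        show a (b u) = u
        rw [show b u = u from hb, show a u = u from ha]
      inv_mem' := fun {a} ha => by
        show a⁻¹ u = u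
        have h : a u = u := ha
        calc a⁻¹ u = a⁻¹ (a u) := by rw [h]
          _ = u := MulAut.inv_apply_self G a u }
  let π : MulAut G →* Cfsg.Out G := QuotientGroup.mk' (Cfsg.Inn G)
  have hlift : ∀ x : Cfsg.Out G, ∃ φ : MulAut G, π φ = x ∧ (∃ r : ℕ, φ u = u ^ r) ∧
      (∃ t : ℕ, φ⁻¹ u = u ^ t) := by
    intro x
    obtain ⟨φ₀, rfl⟩ := QuotientGroup.mk'_surjective (Cfsg.Inn G) x
    obtain ⟨g, hg⟩ := exists_conj_zpowers u hu hpp φ₀
    refine ⟨MulAut.conj g * φ₀, ?_, ?_, ?_⟩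
    · have h1 : π (MulAut.conj g) = 1 := by
        refine (QuotientGroup.eq_one_iff _).mpr ?_
        exact ⟨g, rfl⟩
      rw [map_mul, h1, one_mul]
    · have h1 : (MulAut.conj g * φ₀) u ∈ Subgroup.zpowers u := by
        rw [← hg]
        exact ⟨u, Subgroup.mem_zpowers u, rfl⟩
      have h2 := (mem_powers_iff_mem_zpowers).mpr h1
      obtain ⟨k, hk⟩ := Submonoid.mem_powers_iff _ _ |>.mp h2
      exact ⟨k, hk.symm⟩
    · have h1 : u ∈ (Subgroup.zpowers u).map (MulAut.conj g * φ₀).toMonoidHom := by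
        rw [hg]; exact Subgroup.mem_zpowers u
      obtain ⟨y, hy, hy'⟩ := h1
      have hy'' : (MulAut.conj g * φ₀) y = u := hy'
      have h2 : (MulAut.conj g * φ₀)⁻¹ u = y := by
        calc (MulAut.conj g * φ₀)⁻¹ u = (MulAut.conj g * φ₀)⁻¹ ((MulAut.conj g * φ₀) y) := by
              rw [hy'']
          _ = y := MulAut.inv_apply_self G _ y
      rw [h2]
      have h3 := (mem_powers_iff_mem_zpowers).mpr hy
      obtain ⟨k, hk⟩ := Submonoid.mem_powers_iff _ _ |>.mp h3
      exact ⟨k, hk.symm⟩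
  have hcomm2 : ∀ φ ψ : MulAut G, (∃ r : ℕ, φ u = u ^ r) → (∃ t : ℕ, φ⁻¹ u = u ^ t) →
      (∃ r : ℕ, ψ u = u ^ r) → (∃ t : ℕ, ψ⁻¹ u = u ^ t) → ⁅φ, ψ⁆ u = u := by
    rintro φ ψ ⟨r, hr⟩ ⟨t, ht⟩ ⟨r', hr'⟩ ⟨t', ht'⟩
    have e1 : u ^ (r * t) = u := by
      have h := congrArg φ ht
      have h' : φ (φ⁻¹ u) = u := MulAut.apply_inv_self G φ u
      rw [h', map_pow, hr, ← pow_mul] at h
      exact h.symm
    have e2 : u ^ (r' * t') = u := by
      have h := congrArg ψ ht'
      have h' : ψ (ψ⁻¹ u) = u := MulAut.apply_inv_self G ψ u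
      rw [h', map_pow, hr', ← pow_mul] at h
      exact h.symm
    have e3 : ⁅φ, ψ⁆ u = φ (ψ (φ⁻¹ (ψ⁻¹ u))) := rfl
    have e6 : φ (ψ (φ⁻¹ (ψ⁻¹ u))) = u ^ ((r * t) * (r' * t')) := by
      simp only [ht', map_pow, ht, hr', hr, ← pow_mul]
      congr 1
      ring
    rw [e3, e6, pow_mul, e1, e2]
  have hD1 : derivedSeries (Cfsg.Out G) 1 ≤ C.map π := by
    rw [derivedSeries_succ, derivedSeries_zero, Subgroup.commutator_le]
    intro x _ y _
    obtain ⟨φ, rfl, h1, h2⟩ := hlift x
    obtain ⟨ψ, rfl, h3, h4⟩ := hlift y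
    refine ⟨⁅φ, ψ⁆, hcomm2 φ ψ h1 h2 h3 h4, ?_⟩
    simp [commutatorElement_def]
  have hD2 : derivedSeries (Cfsg.Out G) 2 ≤ ⊥ := by
    rw [derivedSeries_succ, Subgroup.commutator_le]
    intro x hx y hy
    obtain ⟨a, ha, rfl⟩ := hD1 hx
    obtain ⟨b, hb, rfl⟩ := hD1 hy
    have hab : a * b = b * a := hcomm a b ha hb
    rw [Subgroup.mem_bot, commutatorElement_eq_one_iff_mul_comm, ← map_mul, ← map_mul, hab]
  rw [isSolvable_def]
  exact ⟨2, le_bot_iff.mp hD2⟩

end Cfsg.Agent.Lib.Tech.PrimeIndexOut2
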