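import Mathlib
import Cfsg.Prelude.Def_ConjugacyFunctors
import Cfsg.Agent.Lib.Tech.NormalIndex
import Cfsg.Agent.Lib.Char.Burnside

/-!
# Groups with self-normalizing Sylow subgroups.
-/

set_option autoImplicit false
set_option linter.unusedSectionVars false
set_option linter.style.haveILetI false

namespace Cfsg.Agent.Lib.Tech

open Cfsg Subgroup Cfsg.Agent.Lib.Coprime Cfsg.Agent.Lib.Basic
open scoped commutatorElement

universe u

/-- A nontrivial group all of whose Sylow subgroups are self-normalizing has a normal subgroup of prime index. -/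
local notation:max "cj[" g "]" H:max => Subgroup.map (MulEquiv.toMonoidHom (MulAut.conj g)) H

theorem exists_normal_prime_index {G : Type u} [Group G] [Finite G] [Nontrivial G]
    (h : ∀ q : ℕ, q.Prime → q ∣ Nat.card G → ∀ Q : Sylow q G, normalizer ((Q : Subgroup G) : Set G) = Q) :
    ∃ q : ℕ, q.Prime ∧ ∃ N : Subgroup G, N.Normal ∧ N.index = q := by
  by_cases hp : ∃ r : ℕ, r.Prime ∧ 5 ≤ r ∧ r ∣ Nat.card G
  · obtain ⟨r, hr, hr5, hrd⟩ := hp
    haveI : Fact r.Prime := ⟨hr⟩
    obtain ⟨S⟩ : Nonempty (Sylow r G) := inferInstance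
    refine ⟨r, hr, normal_index_of_sections (kInfLower_isCharPFunctor r)
      (fun K R _ => kInfLower_ctl_sections hr5 K R) S (S.ne_bot_of_dvd_card hrd) ?_⟩
    intro g hg hgc
    rw [h r hr hrd S] at hg
    obtain ⟨k, hk⟩ := S.isPGroup' ⟨g, hg⟩
    have hk' : g ^ r ^ k = 1 := congrArg Subtype.val hk
    have h1 : orderOf g = 1 := Nat.eq_one_of_dvd_coprimes (Nat.Coprime.pow_right k hgc) dvd_rfl (orderOf_dvd_of_pow_eq_one hk')
    rw [orderOf_eq_one_iff.1 h1]
    exact Subgroup.one_mem _
  · push Not at hp
    have hcard : Nat.card G ≠ 0 := Nat.card_pos.ne'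
    obtain ⟨a, m, hm, hfac⟩ := Nat.exists_eq_pow_mul_and_not_dvd hcard 2 (by norm_num)
    have hm0 : m ≠ 0 := by
      rintro rfl
      simp at hfac
      exact hcard hfac
    have hm3 : m = 3 ^ (m.primeFactorsList.length) := by
      refine Nat.eq_prime_pow_of_unique_prime_dvd hm0 ?_
      intro d hd hdm
      have h1 : d ∣ Nat.card G := by
        rw [hfac]
        exact hdm.trans (dvd_mul_left _ _)
      have h2 : d < 5 := by
        by_contra hd5
        exact hp d hd (by omega) h1
      have h3 : d ≠ 2 := by
        rintro rfl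
        exact hm hdm
      interval_cases d
      · exact absurd hd (by norm_num)
      · exact absurd hd (by norm_num)
      · exact absurd rfl h3
      · rfl
      · exact absurd hd (by norm_num)
    haveI hsol : Group.IsSolvable G := by
      refine Cfsg.Agent.Lib.Char.isSolvable_of_card_eq_aux (p := 2) (q := 3) (by norm_num) (by norm_num) _ G rfl
        ⟨a, m.primeFactorsList.length, ?_⟩
      rw [← hm3]
      exact hfac
    have hlt : commutator G < ⊤ := Group.IsSolvable.commutator_lt_top_of_nontrivial G
    obtain ⟨x, -, hx⟩ := SetLike.exists_of_lt hlt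
    have ha : Abelianization.of x ≠ 1 := by
      intro h
      apply hx
      rw [← Abelianization.ker_of, MonoidHom.mem_ker]
      exact h
    haveI : Finite (Abelianization G) := by
      unfold Abelianization
      infer_instance
    set a' := Abelianization.of x with ha'
    have hord : orderOf a' ≠ 1 := fun h => ha (orderOf_eq_one_iff.1 h)
    obtain ⟨q, hq, hqd⟩ := Nat.exists_prime_and_dvd hord
    obtain ⟨t, ht⟩ := hqd
    haveI : Fact q.Prime := ⟨hq⟩
    have hb : a' ^ t ≠ 1 := by
      intro h
      have hpos : 0 < orderOf a' := orderOf_pos a'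
      have ht0 : 0 < t := by
        rcases Nat.eq_zero_or_pos t with h0 | h0
        · rw [h0, mul_zero] at ht
          exact absurd ht hpos.ne'
        · exact h0
      have h1 := Nat.le_of_dvd ht0 (orderOf_dvd_of_pow_eq_one h)
      rw [ht] at h1
      have h2 : t < q * t := lt_mul_of_one_lt_left ht0 hq.one_lt
      exact absurd h1 (not_le.2 h2)
    have hb' : (a' ^ t) ^ q ^ 1 = 1 := by
      rw [pow_one, ← pow_mul, mul_comm, ← ht]
      exact pow_orderOf_eq_one a'
    exact ⟨q, hq, exists_normal_index_of_surj Abelianization.of (QuotientGroup.mk'_surjective _)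
      (exists_normal_index_of_comm hb hb')⟩

/-- All Sylow subgroups self-normalizing: prime power order. -/
theorem isPGroup_of_self_normalizing {G : Type u} [Group G] [Finite G]
    (h : ∀ q : ℕ, q.Prime → q ∣ Nat.card G → ∀ Q : Sylow q G, normalizer ((Q : Subgroup G) : Set G) = Q) :
    ∃ q : ℕ, q.Prime ∧ IsPGroup q G := by
  by_cases hnt : Nontrivial G
  · obtain ⟨q, hq, N, hN, hNi⟩ := exists_normal_prime_index h
    refine ⟨q, hq, ?_⟩
    haveI : Fact q.Prime := ⟨hq⟩
    have hcard : Nat.card G = q ^ (Nat.card G).primeFactorsList.length := by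
      refine Nat.eq_prime_pow_of_unique_prime_dvd Nat.card_pos.ne' ?_
      intro r hr hrd
      by_contra hrq
      haveI : Fact r.Prime := ⟨hr⟩
      have hNc : Nat.card N * N.index = Nat.card G := N.card_mul_index
      have hrq' : ¬ r ∣ N.index := by
        rw [hNi]
        intro hd
        exact hrq ((Nat.prime_dvd_prime_iff_eq hr hq).1 hd)
      obtain ⟨T⟩ : Nonempty (Sylow r N) := inferInstance
      set T' : Subgroup G := (T : Subgroup N).map N.subtype with hT'
      have hT'p : IsPGroup r T' := T.isPGroup'.map _
      have hT'i : ¬ r ∣ T'.index := by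
        rw [hT', Subgroup.index_map_subtype]
        intro hd
        rcases (Nat.Prime.dvd_mul hr).1 hd with h1 | h1
        · exact T.not_dvd_index h1
        · exact hrq' h1
      obtain ⟨T'', hT''⟩ := exists_sylow_eq hT'p hT'i
      have hself := h r hr hrd T''
      rw [hT''] at hself
      have hT'N : T' ≤ N := Subgroup.map_subtype_le _
      have hTrel : ¬ r ∣ T'.relIndex N := by
        intro hd
        exact hT'i (hd.trans (Subgroup.relIndex_dvd_index_of_le hT'N))
      have hNtop : N = ⊤ := by
        rw [eq_top_iff]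
        intro g _
        have hgN : cj[g] T' ≤ N := by
          rintro _ ⟨a, ha, rfl⟩
          exact hN.conj_mem a (hT'N ha) g
        have hgp : IsPGroup r (cj[g] T') := hT'p.map _
        have hgi : ¬ r ∣ (cj[g] T').relIndex N := by
          have h1 : Nat.card (cj[g] T') = Nat.card T' := card_conj_map' T' g
          have h2 := card_mul_relIndex_aux hT'N
          have h3 := card_mul_relIndex_aux hgN
          have h4 : (cj[g] T').relIndex N = T'.relIndex N := by
            apply Nat.eq_of_mul_eq_mul_left (Nat.card_pos (α := T'))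
            rw [h2, ← h3, h1]
          rwa [h4]
        obtain ⟨y, hyN, hye⟩ := exists_conj_eq_of_relIndex hT'N hgN hT'p hgp hTrel hgi
        have h5 : y⁻¹ * g ∈ normalizer (T' : Set G) := by
          apply mem_normalizer_of_conj_le
          intro b hb
          have h6 : g * b * g⁻¹ ∈ cj[y] T' := by
            rw [hye]
            exact ⟨b, hb, rfl⟩
          obtain ⟨c, hc, hce⟩ := h6
          have h7 : y * c * y⁻¹ = g * b * g⁻¹ := hce
          have h8 : y⁻¹ * g * b * (y⁻¹ * g)⁻¹ = c := by
            calc y⁻¹ * g * b * (y⁻¹ * g)⁻¹ = y⁻¹ * (g * b * g⁻¹) * y := by group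
              _ = y⁻¹ * (y * c * y⁻¹) * y := by rw [h7]
              _ = c := by group
          rw [h8]
          exact hc
        rw [hself] at h5
        have h9 : g = y * (y⁻¹ * g) := by group
        rw [h9]
        exact N.mul_mem hyN (hT'N h5)
      rw [hNtop, Subgroup.index_top] at hNi
      exact hq.one_lt.ne hNi
    exact IsPGroup.of_card hcard
  · rw [not_nontrivial_iff_subsingleton] at hnt
    refine ⟨2, Nat.prime_two, ?_⟩
    exact IsPGroup.of_card (n := 0) (by simp [Nat.card_unique])

end Cfsg.Agent.Lib.Tech
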