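import Mathlib
import Cfsg.Prelude.Def_ConjugacyFunctors
import Cfsg.Prelude.Def_LocalEven
import Cfsg.Agent.Lib.Tech.HallHigman

/-!
# `p`-stability of the groups with a `TData` structure, for odd `p`; control of strong fusion and `p`-nilpotence.
-/

set_option autoImplicit false
set_option linter.unusedSectionVars false
set_option linter.style.haveILetI false

namespace Cfsg.Agent.Lib.Tech

open Cfsg Subgroup Cfsg.Agent.Lib.Coprime Cfsg.Agent.Lib.Basic Cfsg.Agent.Lib.Transfer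
open scoped commutatorElement

universe u

variable {p : ℕ} [Fact p.Prime]

/-- A `p'`-element acting quadratically on a `p`-group centralizes it. -/
theorem commute_of_quadratic {Y : Type*} [Group Y] [Finite Y] {Q : Subgroup Y} (hQ : IsPGroup p Q) {v : Y}
    (hv : v ∈ normalizer (Q : Set Y)) (hc : (orderOf v).Coprime p) (hq : ⁅⁅Q, zpowers v⁆, zpowers v⁆ = ⊥) :
    ∀ b ∈ Q, Commute v b := by
  have hAQ : ⁅Q, zpowers v⁆ ≤ Q := by
    rw [Subgroup.commutator_le]
    intro b hb z hz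
    have hzN : z ∈ normalizer (Q : Set Y) := (Subgroup.zpowers_le.2 hv) hz
    have h1 : z * b⁻¹ * z⁻¹ ∈ Q := (Subgroup.mem_normalizer_iff.1 hzN b⁻¹).1 (Q.inv_mem hb)
    have h2 : ⁅b, z⁆ = b * (z * b⁻¹ * z⁻¹) := by
      rw [commutatorElement_def]
      group
    rw [h2]
    exact Q.mul_mem hb h1
  refine Cfsg.Agent.Lib.LocalEven.coprime_commute_of_commutator_mem hc hQ hAQ ?_ ?_
  · intro a ha
    have h1 : ⁅a, v⁆ ∈ ⁅⁅Q, zpowers v⁆, zpowers v⁆ := Subgroup.commutator_mem_commutator ha (mem_zpowers v)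
    rw [hq, Subgroup.mem_bot, commutatorElement_eq_one_iff_mul_comm] at h1
    exact h1.symm
  · intro b hb
    exact Subgroup.commutator_mem_commutator hb (mem_zpowers v)

/-- **Groups with `TData` are `p`-stable for odd `p`.** -/
theorem TData.pStable {Y : Type*} [Group Y] [Finite Y] {P₀ H₀ : Subgroup Y} (t : TData p P₀ H₀) (hp : p ≠ 2) :
    IsNormalizerPStable p Y := by
  classical
  have hpr : p.Prime := Fact.out
  have hp3 : 2 ≤ p - 1 := by
    have := hpr.two_le
    omega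
  intro Q hQ g hg hq
  set N : Subgroup Y := normalizer (Q : Set Y) with hN
  set C' : Subgroup ↥N := (centralizer (Q : Set Y)).subgroupOf N with hC'
  haveI hC'n : C'.Normal := centralizer_subgroupOf_normal Q
  have t₁ := t.comap N.subtype N.subtype_injective
  set P₁ : Subgroup ↥N := P₀.comap N.subtype with hP₁
  set H₁ : Subgroup ↥N := H₀.comap N.subtype with hH₁
  let π : ↥N →* ↥N ⧸ C' := QuotientGroup.mk' C'
  have hπ : Function.Surjective π := QuotientGroup.mk'_surjective C'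
  have hπ1 : ∀ z : ↥N, π z = 1 ↔ z ∈ C' := fun z => QuotientGroup.eq_one_iff z
  have t₂ := t₁.map π hπ
  set ĝ : ↥N := ⟨g, hg⟩ with hĝ
  set Q' : Subgroup ↥N := Q.subgroupOf N with hQ'
  have hQN : Q ≤ N := Subgroup.le_normalizer
  haveI hQ'n : Q'.Normal := Subgroup.normal_in_normalizer
  have hQ'p : IsPGroup p Q' := hQ.comap_subtype
  -- the quadratic action inside the normalizer
  have hmapQ : Q'.map N.subtype = Q := by
    rw [hQ', Subgroup.subgroupOf_map_subtype]
    exact inf_eq_left.2 hQN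
  have hq' : ⁅⁅Q', zpowers ĝ⁆, zpowers ĝ⁆ = ⊥ := by
    apply Subgroup.map_injective N.subtype_injective
    rw [Subgroup.map_commutator, Subgroup.map_commutator, hmapQ, MonoidHom.map_zpowers, Subgroup.map_bot]
    exact hq
  -- `g` maps to a `p`-element
  have ha : ∃ k : ℕ, (π ĝ) ^ p ^ k = 1 := by
    obtain ⟨u, v, huv, hu, hv, ⟨k, hk⟩, hvc, -⟩ := Cfsg.Agent.Lib.LocalEven.exists_p_decomp (p := p) ĝ (isOfFinOrder_of_finite ĝ)
    refine ⟨k, ?_⟩
    have hvC : v ∈ C' := by
      show (v : Y) ∈ centralizer (Q : Set Y)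
      rw [Subgroup.mem_centralizer_iff]
      intro b hb
      have hvz : (v : Y) ∈ zpowers g := by
        obtain ⟨n, hn⟩ := hv
        refine ⟨n, ?_⟩
        rw [← hn]
        simp [hĝ]
      have h1 := commute_of_quadratic (Q := Q) hQ (v := (v : Y)) v.2 (by rwa [Subgroup.orderOf_coe]) (by
        rw [eq_bot_iff, ← hq]
        exact Subgroup.commutator_mono (Subgroup.commutator_mono le_rfl (Subgroup.zpowers_le.2 hvz)) (Subgroup.zpowers_le.2 hvz)) b hb
      exact h1.symm
    rw [huv, map_mul, (hπ1 v).2 hvC, mul_one, ← map_pow, ← hk, pow_orderOf_eq_one, map_one]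
  -- action on chief factors
  have hchief : ∀ a ∈ H₁, ∀ U V : Subgroup ↥N, IsChiefFactor U V → U ≤ Q' → ∀ x ∈ U, ⁅x, ⁅a, ĝ⁆⁆ ∈ V := by
    intro a ha U V hc hU
    haveI hVn : V.Normal := hc.2.2.1
    have hUp : IsPGroup p U := hQ'p.to_le hU
    haveI hP₁n : P₁.Normal := t₁.Pn
    have hT : (P₁ ⊔ Q').Normal := Subgroup.sup_normal _ _
    have hTp : IsPGroup p ↥(P₁ ⊔ Q') := IsPGroup.to_sup_of_normal_left t₁.Pp hQ'p
    have hPst : P₁ ≤ chiefStab U V := by
      intro y hy x hx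
      have h1 := chief_trivial_of_normal_pGroup hT hTp hc (hU.trans le_sup_right) y (Subgroup.mem_sup_left hy) x hx
      rw [← commutatorElement_inv]
      exact V.inv_mem h1
    have hit : iterCommutator U (zpowers ĝ) (p - 1) ≤ V := by
      refine (iterCommutator_le_of_le hc.2.1 (zpowers ĝ) hp3).trans ?_
      have h1 : iterCommutator U (zpowers ĝ) 2 ≤ ⁅⁅Q', zpowers ĝ⁆, zpowers ĝ⁆ :=
        Subgroup.commutator_mono (Subgroup.commutator_mono hU le_rfl) le_rfl
      rw [hq'] at h1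
      exact h1.trans bot_le
    exact chief_comm_of_hh hc hUp H₁ t₁.Hn ĝ hit (fun a ha b hb => hPst (t₁.comm a ha b hb)) (fun a ha => by
      obtain ⟨m, hm, h⟩ := t₁.ord a ha
      exact ⟨m, hm, hPst h⟩) a ha
  have hb : ∀ a ∈ H₁, ⁅π a, π ĝ⁆ ∈ P₁.map π := by
    intro a ha
    rw [← map_commutatorElement]
    set j : ↥N := ⁅a, ĝ⁆ with hj
    have hjH : j ∈ H₁ := by
      have h1 : ⁅a, ĝ⁆ = a * (ĝ * a⁻¹ * ĝ⁻¹) := by
        rw [commutatorElement_def]
        group
      rw [hj, h1]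
      exact H₁.mul_mem ha (t₁.Hn.conj_mem _ (H₁.inv_mem ha) ĝ)
    obtain ⟨u, v, huv, hu, hv, ⟨k, hk⟩, hvc, -⟩ := Cfsg.Agent.Lib.LocalEven.exists_p_decomp (p := p) j (isOfFinOrder_of_finite j)
    have huH : u ∈ H₁ := (Subgroup.zpowers_le.2 hjH) hu
    have huP : u ∈ P₁ := by
      obtain ⟨m, hm, hum⟩ := t₁.ord u huH
      refine mem_of_pow_mem_of_coprime P₁ (hm.pow_right k) hum ?_
      rw [← hk, pow_orderOf_eq_one]
      exact P₁.one_mem
    have hvC : v ∈ C' := by
      show (v : Y) ∈ centralizer (Q : Set Y)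
      rw [Subgroup.mem_centralizer_iff]
      intro b hb
      have h1 := commute_of_chief_trivial hvc _ Q' rfl hQ'n hQ'p (fun U V hUV hU => by
        haveI hVn : V.Normal := hUV.2.2.1
        have h2 : zpowers j ≤ chiefStab U V := Subgroup.zpowers_le.2 (fun x hx => hchief a ha U V hUV hU x hx)
        exact h2 hv) ⟨b, hQN hb⟩ hb
      have h3 := congrArg Subtype.val h1.eq
      exact h3.symm
    rw [huv, map_mul, (hπ1 v).2 hvC, mul_one]
    exact ⟨u, huP, rfl⟩
  refine t₂.mem_pCore ha ?_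
  rintro _ ⟨a, haH, rfl⟩
  exact hb a haH

/-- Every section of a group with `TData` is `p`-stable. -/
theorem TData.section_pStable {Y : Type*} [Group Y] [Finite Y] {P₀ H₀ : Subgroup Y} (t : TData p P₀ H₀) (hp : p ≠ 2)
    (K' R' : Subgroup Y) [hR' : (R'.subgroupOf K').Normal] : IsNormalizerPStable p (↥K' ⧸ R'.subgroupOf K') :=
  ((t.comap K'.subtype K'.subtype_injective).map (QuotientGroup.mk' _) (QuotientGroup.mk'_surjective _)).pStable hp

/-- Control of strong fusion by a subgroup with `p`-nilpotent normalizer gives `p`-nilpotence. -/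
theorem hnpc_of_controlsStrongFusion {X : Type*} [Group X] [Finite X] {U : Subgroup X} (hc : ControlsStrongFusion p U)
    (hN : HasNormalPComplement p ↥(normalizer (U : Set X))) : HasNormalPComplement p X := by
  obtain ⟨T, hUT, hctl⟩ := hc
  have hTN : (T : Subgroup X) ≤ normalizer (U : Set X) := by
    intro t ht
    obtain ⟨x, hx, hxa⟩ := (hctl ((T : Subgroup X) : Set X) subset_rfl).2 t (by
      rintro _ ⟨a, ha, rfl⟩
      exact (T : Subgroup X).mul_mem ((T : Subgroup X).mul_mem ht ha) ((T : Subgroup X).inv_mem ht))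
    have hz : x⁻¹ * t ∈ normalizer (U : Set X) := by
      rw [Subgroup.mem_normalizer_iff]
      intro u
      have hcomm : ∀ a ∈ U, x⁻¹ * t * a * (x⁻¹ * t)⁻¹ = a := by
        intro a ha
        have h1 := hxa a (hUT ha)
        calc x⁻¹ * t * a * (x⁻¹ * t)⁻¹ = x⁻¹ * (t * a * t⁻¹) * x := by group
          _ = x⁻¹ * (x * a * x⁻¹) * x := by rw [h1]
          _ = a := by group
      constructor
      · intro hu
        rw [hcomm u hu]
        exact hu
      · intro hu
        have h2 := hcomm _ hu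
        have h5 : (x⁻¹ * t)⁻¹ * ((x⁻¹ * t) * (x⁻¹ * t * u * (x⁻¹ * t)⁻¹) * (x⁻¹ * t)⁻¹) * (x⁻¹ * t) = x⁻¹ * t * u * (x⁻¹ * t)⁻¹ := by
          group
        rw [h2] at h5
        have h7 : (x⁻¹ * t)⁻¹ * (x⁻¹ * t * u * (x⁻¹ * t)⁻¹) * (x⁻¹ * t) = u := by group
        rw [h7] at h5
        rw [← h5] at hu
        rw [h5]
        have h8 : x⁻¹ * t * u * (x⁻¹ * t)⁻¹ ∈ U := by rw [← h5]; exact hu
        exact h8
    have h6 : t = x * (x⁻¹ * t) := by group
    rw [h6]
    exact Subgroup.mul_mem _ hx hz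
  refine hasNormalPComplement_of_control T ?_
  rintro x hx y hy ⟨g, hg⟩
  obtain ⟨c, hc, hca⟩ := (hctl {x} (Set.singleton_subset_iff.2 hx)).2 g (by
    rintro _ ⟨a, ha, rfl⟩
    rw [Set.mem_singleton_iff] at ha
    rw [ha]
    show g * x * g⁻¹ ∈ _
    rw [hg]
    exact hy)
  have hcx := hca x rfl
  have hst := frobeniusStable_of_hasNormalPComplement hN
  set N : Subgroup X := normalizer (U : Set X) with hNdef
  let T' : Sylow p ↥N := T.subtype hTN
  have hT' : ∀ z : ↥N, z ∈ (T' : Subgroup ↥N) ↔ (z : X) ∈ (T : Subgroup X) := by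
    intro z
    rw [Sylow.coe_subtype]
    exact Iff.rfl
  obtain ⟨u, hu, hux⟩ := exists_conj_in_sylow_of_stable hst T' (x := ⟨x, hTN hx⟩) (y := ⟨y, hTN hy⟩) (g := ⟨c, hc⟩)
    ((hT' _).2 hx) ((hT' _).2 hy) (by
      apply Subtype.ext
      show c * x * c⁻¹ = y
      rw [← hcx, hg])
  exact ⟨(u : X), (hT' u).1 hu, congrArg Subtype.val hux⟩

end Cfsg.Agent.Lib.Tech
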