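import Mathlib
import Cfsg.Agent.Lib.Tech.PStableFusion
import Cfsg.Agent.Lib.Tech.CentralFunctor
import Cfsg.Agent.Lib.Basic.Solv1

/-!
# Triple factorizations of the constrained sections: an elementary abelian strongly closed subgroup.
-/

set_option autoImplicit false
set_option linter.unusedSectionVars false
set_option linter.style.haveILetI false

namespace Cfsg.Agent.Lib.Tech

open Cfsg Subgroup Cfsg.Agent.Lib.Coprime Cfsg.Agent.Lib.Basic

universe u

local notation:max "cj[" g "]" H:max => Subgroup.map (MulEquiv.toMonoidHom (MulAut.conj g)) H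

variable {p : ℕ} [Fact p.Prime]

theorem omegaOne_le_self {X : Type*} [Group X] (H : Subgroup X) : omegaOne p H ≤ H :=
  (Subgroup.closure_le _).2 fun _ hx => hx.1

theorem omegaOne_map_center_le {X Y : Type*} [Group X] [Group Y] (f : X →* Y) (S : Subgroup X) :
    (omegaOne p (S ⊓ centralizer (S : Set X))).map f ≤
      omegaOne p ((S.map f) ⊓ centralizer ((S.map f : Subgroup Y) : Set Y)) := by
  rw [omegaOne, MonoidHom.map_closure]
  apply Subgroup.closure_mono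
  rintro _ ⟨x, ⟨⟨hx1, hx2⟩, hx3⟩, rfl⟩
  refine ⟨Subgroup.mem_inf.2 ⟨⟨x, hx1, rfl⟩, ?_⟩, by rw [← map_pow, hx3, map_one]⟩
  rw [Subgroup.mem_centralizer_iff]
  rintro _ ⟨s, hs, rfl⟩
  have := Subgroup.mem_centralizer_iff.1 hx2 s hs
  rw [← map_mul, ← map_mul, this]

theorem closure_pow_eq_one_of_comm {X : Type*} [Group X] {E : Subgroup X} (hcomm : ∀ x ∈ E, ∀ y ∈ E, x * y = y * x)
    {s : Set X} (hs : ∀ x ∈ s, x ∈ E ∧ x ^ p = 1) : ∀ x ∈ Subgroup.closure s, x ∈ E ∧ x ^ p = 1 := by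
  intro x hx
  induction hx using Subgroup.closure_induction with
  | mem x hx => exact hs x hx
  | one => exact ⟨E.one_mem, one_pow _⟩
  | mul x y _ _ hx hy =>
    refine ⟨E.mul_mem hx.1 hy.1, ?_⟩
    have hc : Commute x y := hcomm x hx.1 y hy.1
    rw [hc.mul_pow, hx.2, hy.2, one_mul]
  | inv x _ hx =>
    exact ⟨E.inv_mem hx.1, by rw [inv_pow, hx.2, inv_one]⟩

/-- A normal `p`-subgroup containing its centralizer in a Sylow subgroup: the quotient by the
`p'`-core is constrained. -/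
theorem constrained_of_normal_centric {X : Type u} [Group X] [Finite X] (N : Subgroup X) [hNn : N.Normal]
    (hN : N = pPrimeCore p X) (S : Sylow p X) (J : Subgroup X) (hJn : J.Normal) (hJS : J ≤ (S : Subgroup X))
    (hCS : (S : Subgroup X) ⊓ centralizer (J : Set X) ≤ J) :
    centralizer ((pCore p (X ⧸ N) : Subgroup (X ⧸ N)) : Set (X ⧸ N)) ≤ pCore p (X ⧸ N) := by
  subst hN
  have hπ := QuotientGroup.mk'_surjective (pPrimeCore p X)
  set π := QuotientGroup.mk' (pPrimeCore p X) with hπdef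
  have hJp : IsPGroup p J := S.isPGroup'.to_le hJS
  let T : Sylow p (X ⧸ pPrimeCore p X) := S.mapSurjective hπ
  have hT : (T : Subgroup (X ⧸ pPrimeCore p X)) = (S : Subgroup X).map π := rfl
  refine centralizer_core_le (S := (T : Subgroup (X ⧸ pPrimeCore p X))) T.isPGroup' T.not_dvd_index ?_ ?_
  · intro y hy
    obtain ⟨hy1, hy2⟩ := Subgroup.mem_inf.1 hy
    rw [hT] at hy1
    obtain ⟨s, hs, rfl⟩ := hy1
    have hJbar : J.map π ≤ pCore p (X ⧸ pPrimeCore p X) :=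
      Cfsg.Agent.Lib.Basic.le_pCore (hJn.map _ hπ) (hJp.map _)
    have hsC : s ∈ (S : Subgroup X) ⊓ centralizer (J : Set X) := by
      refine Subgroup.mem_inf.2 ⟨hs, ?_⟩
      rw [Subgroup.mem_centralizer_iff]
      intro j hj
      have h1 := Subgroup.mem_centralizer_iff.1 hy2 (π j) (hJbar ⟨j, hj, rfl⟩)
      have h2 : s * j * s⁻¹ * j⁻¹ ∈ J := J.mul_mem (hJn.conj_mem j hj s) (J.inv_mem hj)
      have h3 : s * j * s⁻¹ * j⁻¹ ∈ pPrimeCore p X := by
        have h4 : π (s * j * s⁻¹ * j⁻¹) = 1 := by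
          simp only [map_mul, map_inv]
          rw [← h1]
          group
        rwa [← QuotientGroup.ker_mk' (pPrimeCore p X), MonoidHom.mem_ker]
      have h5 := inf_pPrimeCore_eq_one hJp h2 h3
      have h6 : s * j * s⁻¹ = j := mul_inv_eq_one.1 h5
      calc j * s = (s * j * s⁻¹) * s := by rw [h6]
        _ = s * j := by group
    exact hJbar ⟨s, hCS hsC, rfl⟩
  · intro R hR hc
    have h1 := le_pPrimeCore hR hc
    rw [Cfsg.Agent.Lib.Basic.pPrimeCore_quotient_eq_bot p] at h1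
    exact le_bot_iff.1 h1

/-- The factorization of the constrained quotient lifts. -/
theorem lift_factorization {X : Type u} [Group X] [Finite X] (N : Subgroup X) [hNn : N.Normal] (hN : N = pPrimeCore p X)
    (S : Subgroup X) (hSp : IsPGroup p S) (J : Subgroup X) (hJn : J.Normal) (hJp : IsPGroup p J)
    (hZ : omegaOne p (S ⊓ centralizer (S : Set X)) ≤ J) {W' : ∀ (Q : Type u) [Group Q], Subgroup Q}
    (hW' : IsCharPFunctor.{u} p W')
    (hfacY : ∀ x : X ⧸ N, ∃ a ∈ centralizer ((omegaOne p ((S.map (QuotientGroup.mk' N)) ⊓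
        centralizer ((S.map (QuotientGroup.mk' N) : Subgroup (X ⧸ N)) : Set (X ⧸ N))) : Subgroup (X ⧸ N)) : Set (X ⧸ N)),
      ∃ b ∈ normalizer ((inducedFunctor (G := X ⧸ N) W' (S.map (QuotientGroup.mk' N)) : Subgroup (X ⧸ N)) : Set (X ⧸ N)),
        x = a * b) :
    ∀ x : X, ∃ a ∈ centralizer ((omegaOne p (S ⊓ centralizer (S : Set X)) : Subgroup X) : Set X),
      ∃ b ∈ normalizer ((inducedFunctor (G := X) W' S : Subgroup X) : Set X), x = a * b := by
  intro x
  have hπ := QuotientGroup.mk'_surjective N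
  have hNc : (Nat.card N).Coprime p := by
    rw [hN]
    exact Cfsg.Agent.Lib.Components.coprime_card_pPrimeCore p
  obtain ⟨a₀, ha₀, b₀, hb₀, e⟩ := hfacY (QuotientGroup.mk' N x)
  obtain ⟨b₁, hb₁, rfl⟩ := normalizer_induced_le_map hW' N hNc hSp hb₀
  refine ⟨x * b₁⁻¹, ?_, b₁, hb₁, by group⟩
  have ha : QuotientGroup.mk' N (x * b₁⁻¹) = a₀ := by
    rw [map_mul, map_inv, e]
    group
  rw [Subgroup.mem_centralizer_iff]
  intro z hz
  have hzJ : z ∈ J := hZ hz
  have h1 : QuotientGroup.mk' N z ∈ omegaOne p ((S.map (QuotientGroup.mk' N)) ⊓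
      centralizer ((S.map (QuotientGroup.mk' N) : Subgroup (X ⧸ N)) : Set (X ⧸ N))) :=
    omegaOne_map_center_le _ S ⟨z, hz, rfl⟩
  have h2 := Subgroup.mem_centralizer_iff.1 ha₀ _ h1
  set a := x * b₁⁻¹ with ha'
  have h3 : a * z * a⁻¹ * z⁻¹ ∈ J := J.mul_mem (hJn.conj_mem z hzJ a) (J.inv_mem hzJ)
  have h4 : a * z * a⁻¹ * z⁻¹ ∈ pPrimeCore p X := by
    rw [← hN, ← QuotientGroup.ker_mk' N, MonoidHom.mem_ker]
    simp only [map_mul, map_inv]
    rw [ha, ← h2]
    group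
  have h5 := inf_pPrimeCore_eq_one hJp h3 h4
  have h6 : a * z * a⁻¹ = z := mul_inv_eq_one.1 h5
  calc z * a = (a * z * a⁻¹) * a := by rw [h6]
    _ = a * z := by group

variable {G : Type u} [Group G] [Finite G]

/-- The factorization `N(Q) = C(Ω₁Z(S)) N(W'(S))`. -/
theorem factor_normalizer (S : Sylow p G) {W' : ∀ (Q : Type u) [Group Q], Subgroup Q} (hW' : IsCharPFunctor.{u} p W')
    (hfacC : ∀ (K R : Subgroup G) [hR : (R.subgroupOf K).Normal],
      centralizer ((pCore p (↥K ⧸ R.subgroupOf K) : Subgroup (↥K ⧸ R.subgroupOf K)) : Set (↥K ⧸ R.subgroupOf K)) ≤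
        pCore p (↥K ⧸ R.subgroupOf K) → ∀ T : Sylow p (↥K ⧸ R.subgroupOf K), ∀ x : (↥K ⧸ R.subgroupOf K),
        ∃ a ∈ centralizer ((omegaOne p ((T : Subgroup (↥K ⧸ R.subgroupOf K)) ⊓
          centralizer (((T : Subgroup (↥K ⧸ R.subgroupOf K)) : Subgroup (↥K ⧸ R.subgroupOf K)) : Set (↥K ⧸ R.subgroupOf K))) :
            Subgroup (↥K ⧸ R.subgroupOf K)) : Set (↥K ⧸ R.subgroupOf K)),
        ∃ b ∈ normalizer ((inducedFunctor (G := (↥K ⧸ R.subgroupOf K)) W' (T : Subgroup (↥K ⧸ R.subgroupOf K)) :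
          Subgroup (↥K ⧸ R.subgroupOf K)) : Set (↥K ⧸ R.subgroupOf K)), x = a * b)
    {Q : Subgroup G} (hQS : Q ≤ (S : Subgroup G)) (hSQ : (S : Subgroup G) ≤ normalizer (Q : Set G))
    (hZQ : omegaOne p ((S : Subgroup G) ⊓ centralizer ((S : Subgroup G) : Set G)) ≤ Q) :
    ∀ x ∈ normalizer (Q : Set G),
      ∃ a ∈ centralizer ((omegaOne p ((S : Subgroup G) ⊓ centralizer ((S : Subgroup G) : Set G)) : Subgroup G) : Set G),
        ∃ b ∈ normalizer ((inducedFunctor (G := G) W' (S : Subgroup G) : Subgroup G) : Set G), x = a * b := by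
  classical
  have hSp := S.isPGroup'
  have hSi := S.not_dvd_index
  set S' : Subgroup G := (S : Subgroup G) with hS'
  set Z₀ := omegaOne p (S' ⊓ centralizer (S' : Set G)) with hZ₀
  set T : Subgroup G := S' ⊓ centralizer (Q : Set G) with hT
  have hTp : IsPGroup p T := hSp.to_le inf_le_left
  have hext : Ext p S' Q := by
    rw [Ext, inf_eq_left.2 hSQ]
    intro hd
    exact hSi (hd.trans (Subgroup.relIndex_dvd_index_of_le hSQ))
  have hTi : ¬ p ∣ T.relIndex (centralizer (Q : Set G)) := ext_centralizer hext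
  have hCconj : ∀ x ∈ normalizer (Q : Set G), cj[x] (centralizer (Q : Set G)) = centralizer (Q : Set G) := by
    intro x hx
    rw [← centralizer_cj, (conj_map_eq_iff_mem_normalizer Q x).2 hx]
  have hST : S' ≤ normalizer (T : Set G) := by
    intro y hy
    rw [← conj_map_eq_iff_mem_normalizer, hT, conj_map_inf, hCconj y (hSQ hy),
      (conj_map_eq_iff_mem_normalizer S' y).2 (Subgroup.le_normalizer hy)]
  set K₁ : Subgroup G := normalizer (Q : Set G) ⊓ normalizer (T : Set G) with hK₁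
  have hSK₁ : S' ≤ K₁ := le_inf hSQ hST
  set J : Subgroup G := Q ⊔ T with hJ
  have hJS : J ≤ S' := sup_le hQS inf_le_left
  have hJp : IsPGroup p J := hSp.to_le hJS
  have hJK₁ : J ≤ K₁ := hJS.trans hSK₁
  have hK₁J : K₁ ≤ normalizer (J : Set G) := by
    intro y hy
    rw [← conj_map_eq_iff_mem_normalizer, hJ, Subgroup.map_sup,
      (conj_map_eq_iff_mem_normalizer Q y).2 (Subgroup.mem_inf.1 hy).1,
      (conj_map_eq_iff_mem_normalizer T y).2 (Subgroup.mem_inf.1 hy).2]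
  set ι := K₁.subtype with hι
  have hιinj : Function.Injective ι := K₁.subtype_injective
  set SX : Subgroup ↥K₁ := S'.subgroupOf K₁ with hSX
  have hSXmap : SX.map ι = S' := Subgroup.map_subgroupOf_eq_of_le hSK₁
  have hSXp : IsPGroup p SX := hSp.comap_subtype
  have hSXi : ¬ p ∣ SX.index := by
    intro hd
    exact hSi (hd.trans (Subgroup.relIndex_dvd_index_of_le hSK₁))
  obtain ⟨D, hD⟩ := exists_sylow_eq hSXp hSXi
  set JX : Subgroup ↥K₁ := J.subgroupOf K₁ with hJX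
  have hJXn : JX.Normal := (Subgroup.normal_subgroupOf_iff_le_normalizer hJK₁).2 hK₁J
  have hJXp : IsPGroup p JX := hJp.comap_subtype
  have hJXS : JX ≤ (D : Subgroup ↥K₁) := by
    rw [hD]
    intro y hy
    exact hJS hy
  have hCS : (D : Subgroup ↥K₁) ⊓ centralizer (JX : Set ↥K₁) ≤ JX := by
    rw [hD]
    intro y hy
    obtain ⟨hy1, hy2⟩ := Subgroup.mem_inf.1 hy
    show (y : G) ∈ J
    refine (le_sup_right : T ≤ J) (Subgroup.mem_inf.2 ⟨hy1, ?_⟩)
    rw [Subgroup.mem_centralizer_iff]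
    intro q hq
    have hqJ : q ∈ J := (le_sup_left : Q ≤ J) hq
    have h1 := Subgroup.mem_centralizer_iff.1 hy2 ⟨q, hJK₁ hqJ⟩ hqJ
    exact congrArg Subtype.val h1
  set R : Subgroup G := (pPrimeCore p ↥K₁).map ι with hR
  have hN' : R.subgroupOf K₁ = pPrimeCore p ↥K₁ := Subgroup.comap_map_eq_self_of_injective hιinj _
  haveI hRn : (R.subgroupOf K₁).Normal := by
    rw [hN']
    exact Cfsg.Agent.Lib.Basic.pPrimeCore_normal p
  have hc := constrained_of_normal_centric (R.subgroupOf K₁) hN' D JX hJXn hJXS hCS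
  have hπ := QuotientGroup.mk'_surjective (R.subgroupOf K₁)
  let TY : Sylow p (↥K₁ ⧸ R.subgroupOf K₁) := D.mapSurjective hπ
  have hTY : (TY : Subgroup (↥K₁ ⧸ R.subgroupOf K₁)) = SX.map (QuotientGroup.mk' (R.subgroupOf K₁)) := by
    show (D : Subgroup ↥K₁).map _ = _
    rw [hD]
  have hfY := hfacC K₁ R hc TY
  rw [hTY] at hfY
  have hZX : omegaOne p (SX ⊓ centralizer (SX : Set ↥K₁)) ≤ JX := by
    rw [omegaOne, Subgroup.closure_le]
    rintro y ⟨hy1, hy2⟩
    obtain ⟨hy3, hy4⟩ := Subgroup.mem_inf.1 hy1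
    have h1 : (y : G) ∈ Z₀ := by
      refine Subgroup.subset_closure ⟨Subgroup.mem_inf.2 ⟨hy3, ?_⟩, ?_⟩
      · rw [Subgroup.mem_centralizer_iff]
        intro s hs
        have h2 := Subgroup.mem_centralizer_iff.1 hy4 ⟨s, hSK₁ hs⟩ hs
        exact congrArg Subtype.val h2
      · have h2 := congrArg Subtype.val hy2
        simpa using h2
    exact (le_sup_left : Q ≤ J) (hZQ h1)
  have hlift := lift_factorization (R.subgroupOf K₁) hN' SX hSXp JX hJXn hJXp hZX hW' hfY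
  have hZlift : Z₀ ≤ (omegaOne p (SX ⊓ centralizer (SX : Set ↥K₁))).map ι := by
    rw [hZ₀, omegaOne, Subgroup.closure_le]
    rintro z ⟨hz1, hz2⟩
    obtain ⟨hz3, hz4⟩ := Subgroup.mem_inf.1 hz1
    refine ⟨⟨z, hSK₁ hz3⟩, Subgroup.subset_closure ⟨Subgroup.mem_inf.2 ⟨hz3, ?_⟩, ?_⟩, rfl⟩
    · rw [Subgroup.mem_centralizer_iff]
      intro s hs
      apply Subtype.ext
      exact Subgroup.mem_centralizer_iff.1 hz4 _ hs
    · apply Subtype.ext
      simpa using hz2
  have hind : inducedFunctor (G := G) W' S' = (inducedFunctor (G := ↥K₁) W' SX).map ι := by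
    have h1 := induced_map hW' ι SX hSXp (fun a _ h => hιinj (by simpa using h))
    rw [hSXmap] at h1
    exact h1
  intro x hx
  have hxT : cj[x] T ≤ centralizer (Q : Set G) := by
    rw [← hCconj x hx]
    exact conj_map_mono inf_le_right x
  have hi' : ¬ p ∣ (cj[x] T).relIndex (centralizer (Q : Set G)) := by
    have h1 := relIndex_conj_map T (centralizer (Q : Set G)) x
    rw [hCconj x hx] at h1
    rw [h1]
    exact hTi
  obtain ⟨c, hc₁, hcT⟩ := exists_conj_eq_of_relIndex hxT (inf_le_right : T ≤ centralizer (Q : Set G))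
    (isPGroup_conj_map hTp x) hTp hi' hTi
  have hcxT : c * x ∈ normalizer (T : Set G) := by
    rw [← conj_map_eq_iff_mem_normalizer, ← conj_map_conj_map]
    exact hcT
  have hcN : c ∈ normalizer (Q : Set G) := centralizer_le_normalizer' Q hc₁
  let k₁ : ↥K₁ := ⟨c * x, Subgroup.mem_inf.2 ⟨Subgroup.mul_mem _ hcN hx, hcxT⟩⟩
  obtain ⟨a₀, ha₀, b₀, hb₀, e⟩ := hlift k₁
  refine ⟨c⁻¹ * (a₀ : G), ?_, (b₀ : G), ?_, ?_⟩
  · refine Subgroup.mul_mem _ (Subgroup.inv_mem _ ?_) ?_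
    · exact Subgroup.centralizer_le hZQ hc₁
    · rw [Subgroup.mem_centralizer_iff]
      intro z hz
      obtain ⟨z₀, hz₀, rfl⟩ := hZlift hz
      have h1 := Subgroup.mem_centralizer_iff.1 ha₀ z₀ hz₀
      exact congrArg Subtype.val h1
  · have h1 : ι b₀ ∈ (normalizer ((inducedFunctor (G := ↥K₁) W' SX : Subgroup ↥K₁) : Set ↥K₁)).map ι := ⟨b₀, hb₀, rfl⟩
    rw [map_normalizer_inj ι hιinj] at h1
    have h2 := (Subgroup.mem_inf.1 h1).2
    rw [← hind] at h2
    exact h2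
  · have h1 : c * x = (a₀ : G) * (b₀ : G) := congrArg Subtype.val e
    calc x = c⁻¹ * (c * x) := by group
      _ = _ := by rw [h1]; group

/-- The subgroup generated by the `H`-conjugates of `Z`. -/
def conjCl (H Z : Subgroup G) : Subgroup G := Subgroup.closure {w | ∃ y ∈ H, ∃ z ∈ Z, w = y * z * y⁻¹}

theorem conjCl_normalized (H Z : Subgroup G) : H ≤ normalizer (conjCl H Z : Set G) := by
  intro y hy
  apply mem_normalizer_of_conj_le
  intro x hx
  induction hx using Subgroup.closure_induction with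
  | mem x hx =>
    obtain ⟨y', hy', z, hz, rfl⟩ := hx
    refine Subgroup.subset_closure ⟨y * y', H.mul_mem hy hy', z, hz, ?_⟩
    group
  | one => simp [Subgroup.one_mem]
  | mul a b _ _ ha hb =>
    have e : y * (a * b) * y⁻¹ = (y * a * y⁻¹) * (y * b * y⁻¹) := by group
    rw [e]
    exact Subgroup.mul_mem _ ha hb
  | inv a _ ha =>
    have e : y * a⁻¹ * y⁻¹ = (y * a * y⁻¹)⁻¹ := by group
    rw [e]
    exact Subgroup.inv_mem _ ha

theorem conjCl_le_of_factor {H H' Z : Subgroup G}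
    (h : ∀ x ∈ H, ∃ a ∈ centralizer (Z : Set G), ∃ b ∈ H', x = a * b) : conjCl H Z ≤ conjCl H' Z := by
  rw [conjCl, Subgroup.closure_le]
  rintro w ⟨y, hy, z, hz, rfl⟩
  obtain ⟨a, ha, b, hb, e⟩ := h y⁻¹ (H.inv_mem hy)
  have hy' : y = b⁻¹ * a⁻¹ := by
    have : y = (a * b)⁻¹ := by rw [← e]; simp
    rw [this]
    group
  have hc : a⁻¹ * z * a = z := by
    have h1 := Subgroup.mem_centralizer_iff.1 ha z hz
    calc a⁻¹ * z * a = a⁻¹ * (z * a) := by group
      _ = a⁻¹ * (a * z) := by rw [h1]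
      _ = z := by group
  refine Subgroup.subset_closure ⟨b⁻¹, H'.inv_mem hb, z, hz, ?_⟩
  rw [hy']
  calc b⁻¹ * a⁻¹ * z * (b⁻¹ * a⁻¹)⁻¹ = b⁻¹ * (a⁻¹ * z * a) * b⁻¹⁻¹ := by group
    _ = _ := by rw [hc]

theorem normalClosure_map_eq_conjCl {N Z : Subgroup G} (hZN : Z ≤ N) :
    (Subgroup.normalClosure ((Z.subgroupOf N : Subgroup ↥N) : Set ↥N)).map N.subtype = conjCl N Z := by
  apply le_antisymm
  · rw [Subgroup.normalClosure, MonoidHom.map_closure, conjCl]
    apply Subgroup.closure_mono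
    rintro _ ⟨x, hx, rfl⟩
    obtain ⟨a, ha, hax⟩ := Group.mem_conjugatesOfSet_iff.1 hx
    obtain ⟨c, rfl⟩ := isConj_iff.1 hax
    exact ⟨(c : G), c.2, (a : G), ha, by simp⟩
  · rw [conjCl, Subgroup.closure_le]
    rintro w ⟨y, hy, z, hz, rfl⟩
    refine ⟨⟨y, hy⟩ * ⟨z, hZN hz⟩ * ⟨y, hy⟩⁻¹, ?_, by simp⟩
    have hz' : (⟨z, hZN hz⟩ : ↥N) ∈ ((Z.subgroupOf N : Subgroup ↥N) : Set ↥N) := hz
    have h : (⟨z, hZN hz⟩ : ↥N) ∈ Subgroup.normalClosure ((Z.subgroupOf N : Subgroup ↥N) : Set ↥N) :=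
      Subgroup.subset_normalClosure hz'
    exact (Subgroup.normalClosure_normal (s := ((Z.subgroupOf N : Subgroup ↥N) : Set ↥N))).conj_mem _ h _

/-- **The triple factorization theorem.** -/
theorem triple_factorization (S : Sylow p G) (W₁ W₂ : ∀ (Q : Type u) [Group Q], Subgroup Q)
    (hW₁ : IsCharPFunctor.{u} p W₁) (hW₂ : IsCharPFunctor.{u} p W₂)
    (hfac₁ : ∀ (K R : Subgroup G) [hR : (R.subgroupOf K).Normal],
      centralizer ((pCore p (↥K ⧸ R.subgroupOf K) : Subgroup (↥K ⧸ R.subgroupOf K)) : Set (↥K ⧸ R.subgroupOf K)) ≤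
        pCore p (↥K ⧸ R.subgroupOf K) → ∀ T : Sylow p (↥K ⧸ R.subgroupOf K), ∀ x : (↥K ⧸ R.subgroupOf K),
        ∃ a ∈ centralizer ((omegaOne p ((T : Subgroup (↥K ⧸ R.subgroupOf K)) ⊓
          centralizer (((T : Subgroup (↥K ⧸ R.subgroupOf K)) : Subgroup (↥K ⧸ R.subgroupOf K)) : Set (↥K ⧸ R.subgroupOf K))) :
            Subgroup (↥K ⧸ R.subgroupOf K)) : Set (↥K ⧸ R.subgroupOf K)),
        ∃ b ∈ normalizer ((inducedFunctor (G := (↥K ⧸ R.subgroupOf K)) W₁ (T : Subgroup (↥K ⧸ R.subgroupOf K)) :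
          Subgroup (↥K ⧸ R.subgroupOf K)) : Set (↥K ⧸ R.subgroupOf K)), x = a * b)
    (hfac₂ : ∀ (K R : Subgroup G) [hR : (R.subgroupOf K).Normal],
      centralizer ((pCore p (↥K ⧸ R.subgroupOf K) : Subgroup (↥K ⧸ R.subgroupOf K)) : Set (↥K ⧸ R.subgroupOf K)) ≤
        pCore p (↥K ⧸ R.subgroupOf K) → ∀ T : Sylow p (↥K ⧸ R.subgroupOf K), ∀ x : (↥K ⧸ R.subgroupOf K),
        ∃ a ∈ centralizer ((omegaOne p ((T : Subgroup (↥K ⧸ R.subgroupOf K)) ⊓
          centralizer (((T : Subgroup (↥K ⧸ R.subgroupOf K)) : Subgroup (↥K ⧸ R.subgroupOf K)) : Set (↥K ⧸ R.subgroupOf K))) :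
            Subgroup (↥K ⧸ R.subgroupOf K)) : Set (↥K ⧸ R.subgroupOf K)),
        ∃ b ∈ normalizer ((inducedFunctor (G := (↥K ⧸ R.subgroupOf K)) W₂ (T : Subgroup (↥K ⧸ R.subgroupOf K)) :
          Subgroup (↥K ⧸ R.subgroupOf K)) : Set (↥K ⧸ R.subgroupOf K)), x = a * b)
    (hFS : FamilyControlsStrongFusionIn p {inducedFunctor (G := G) W₁, inducedFunctor (G := G) W₂} ⊤)
    (hZ : omegaOne p ((S : Subgroup G) ⊓ centralizer (((S : Subgroup G) : Subgroup G) : Set G)) ≤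
      inducedFunctor (G := G) W₁ (S : Subgroup G) ⊓ inducedFunctor (G := G) W₂ (S : Subgroup G))
    (N₁ : Subgroup G) (hN₁ : N₁ = normalizer ((inducedFunctor (G := G) W₁ (S : Subgroup G) : Subgroup G) : Set G))
    (A : Subgroup G)
    (hA : A = (Subgroup.normalClosure (((omegaOne p ((S : Subgroup G) ⊓
      centralizer (((S : Subgroup G) : Subgroup G) : Set G))).subgroupOf N₁ : Subgroup ↥N₁) : Set ↥N₁)).map N₁.subtype) :
    A ≤ (S : Subgroup G) ∧ IsElementaryAbelian p A ∧ IsStronglyClosed A (S : Subgroup G) ∧ ControlsStrongFusion p A := by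
  classical
  have hSp := S.isPGroup'
  set S' : Subgroup G := (S : Subgroup G) with hS'
  set Z₀ : Subgroup G := omegaOne p (S' ⊓ centralizer (S' : Set G)) with hZ₀
  have hWc₁ : IsConjugacyFunctor p (inducedFunctor (G := G) W₁) := isConjugacyFunctor_induced hW₁
  have hWc₂ : IsConjugacyFunctor p (inducedFunctor (G := G) W₂) := isConjugacyFunctor_induced hW₂
  set Q₁ : Subgroup G := inducedFunctor (G := G) W₁ S' with hQ₁
  set Q₂ : Subgroup G := inducedFunctor (G := G) W₂ S' with hQ₂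
  have hQ₁S : Q₁ ≤ S' := (hWc₁ _ hSp).1
  have hQ₂S : Q₂ ≤ S' := (hWc₂ _ hSp).1
  have hSQ₁ : S' ≤ normalizer (Q₁ : Set G) := Subgroup.le_normalizer.trans (normalizer_le_normalizer_functor hWc₁ hSp)
  have hSQ₂ : S' ≤ normalizer (Q₂ : Set G) := Subgroup.le_normalizer.trans (normalizer_le_normalizer_functor hWc₂ hSp)
  have hZQ₁ : Z₀ ≤ Q₁ := hZ.trans inf_le_left
  have hZQ₂ : Z₀ ≤ Q₂ := hZ.trans inf_le_right
  have hZS : Z₀ ≤ S' ⊓ centralizer (S' : Set G) := omegaOne_le_self _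
  subst hN₁
  have hZN₁ : Z₀ ≤ normalizer (Q₁ : Set G) := hZQ₁.trans Subgroup.le_normalizer
  have hA' : A = conjCl (normalizer (Q₁ : Set G)) Z₀ := by
    rw [hA]
    exact normalClosure_map_eq_conjCl hZN₁
  have hfa₁ := factor_normalizer S hW₁ hfac₁ hQ₂S hSQ₂ hZQ₂
  have hfa₂ := factor_normalizer S hW₂ hfac₂ hQ₁S hSQ₁ hZQ₁
  have hAB : conjCl (normalizer (Q₁ : Set G)) Z₀ = conjCl (normalizer (Q₂ : Set G)) Z₀ :=
    le_antisymm (conjCl_le_of_factor hfa₂) (conjCl_le_of_factor hfa₁)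
  have hN₁A : normalizer (Q₁ : Set G) ≤ normalizer (A : Set G) := by
    rw [hA']
    exact conjCl_normalized _ _
  have hN₂A : normalizer (Q₂ : Set G) ≤ normalizer (A : Set G) := by
    rw [hA', hAB]
    exact conjCl_normalized _ _
  -- `A` is elementary abelian
  have hZpow : ∀ z ∈ Z₀, z ^ p = 1 := by
    intro z hz
    refine (closure_pow_eq_one_of_comm (E := S' ⊓ centralizer (S' : Set G)) ?_ ?_ z hz).2
    · intro x hx y hy
      exact (Subgroup.mem_centralizer_iff.1 (Subgroup.mem_inf.1 hy).2 x (Subgroup.mem_inf.1 hx).1)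
    · intro x hx
      exact ⟨hx.1, hx.2⟩
  have hE : ∀ x ∈ A, x ∈ Q₁ ⊓ centralizer (Q₁ : Set G) ∧ x ^ p = 1 := by
    intro x hx
    rw [hA'] at hx
    refine closure_pow_eq_one_of_comm ?_ ?_ x hx
    · intro x hx y hy
      exact (Subgroup.mem_centralizer_iff.1 (Subgroup.mem_inf.1 hy).2 x (Subgroup.mem_inf.1 hx).1)
    · rintro w ⟨y, hy, z, hz, rfl⟩
      refine ⟨Subgroup.mem_inf.2 ⟨(Subgroup.mem_normalizer_iff.1 hy z).1 (hZQ₁ hz), ?_⟩, ?_⟩
      · have h1 : z ∈ centralizer (Q₁ : Set G) :=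
          Subgroup.centralizer_le hQ₁S (Subgroup.mem_inf.1 (hZS hz)).2
        have h2 := conj_mem_conj_map _ y z h1
        rw [← centralizer_cj, (conj_map_eq_iff_mem_normalizer Q₁ y).2 hy] at h2
        exact h2
      · rw [conj_pow, hZpow z hz]
        group
  have hAS : A ≤ S' := fun x hx => hQ₁S (Subgroup.mem_inf.1 (hE x hx).1).1
  have hAea : IsElementaryAbelian p A := by
    refine ⟨⟨⟨fun a b => Subtype.ext ?_⟩⟩, fun a ha => (hE a ha).2⟩
    exact Subgroup.mem_centralizer_iff.1 (Subgroup.mem_inf.1 (hE b b.2).1).2 a (Subgroup.mem_inf.1 (hE a a.2).1).1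
  -- strong fusion
  have hF : ∀ W ∈ ({inducedFunctor (G := G) W₁, inducedFunctor (G := G) W₂} : Set (Subgroup G → Subgroup G)),
      IsConjugacyFunctor p W := by
    rintro W (rfl | rfl)
    · exact hWc₁
    · exact hWc₂
  have hctl := fctl_of_controls hF hFS (le_top : S' ≤ ⊤) hSp (by
    rw [Subgroup.relIndex_top_right]
    exact S.not_dvd_index)
  have hchain : ∀ (A' : Set G) (c : G), LC ({inducedFunctor (G := G) W₁, inducedFunctor (G := G) W₂} : Set (Subgroup G → Subgroup G))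
      ⊤ S' A' c → c ∈ normalizer (A : Set G) := by
    intro A' c hc
    induction hc with
    | nil => exact Subgroup.one_mem _
    | step _ W hW hd _ ih =>
      refine Subgroup.mul_mem _ ?_ ih
      rcases hW with rfl | rfl
      · exact hN₁A (Subgroup.mem_inf.1 hd).2
      · exact hN₂A (Subgroup.mem_inf.1 hd).2
  refine ⟨hAS, hAea, ⟨hAS, fun x hx g hg => ?_⟩, ⟨S, hAS, fun A' hA'' => ⟨hA'', fun g hg => ?_⟩⟩⟩
  · have hx' : ({x} : Set G) ⊆ S' := by
      rintro _ rfl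
      exact hAS hx
    have hg' : lc g ({x} : Set G) ⊆ S' := by
      rintro _ ⟨_, rfl, rfl⟩
      exact hg
    obtain ⟨c, hc1, hc2⟩ := hctl {x} g trivial hx' hg'
    rw [← hc2 x rfl]
    exact (Subgroup.mem_normalizer_iff.1 (hchain _ c hc1) x).1 hx
  · obtain ⟨c, hc1, hc2⟩ := hctl A' g trivial hA'' hg
    exact ⟨c, hchain _ c hc1, fun a ha => (hc2 a ha).symm⟩

end Cfsg.Agent.Lib.Tech
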